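import Cfsg.Agent.H8.L4.Hm2
import Cfsg.Agent.H6.L4.If

/-! Homologies in subgroups of `SL₄`: tools. -/

set_option autoImplicit false
set_option linter.unusedSimpArgs false
set_option linter.unusedSectionVars false
set_option linter.unusedVariables false

namespace Cfsg.Agent.H6.L4

open Module LinearMap Cfsg.Agent.H8.M3 Cfsg.Agent.H8.L4
open Cfsg.Agent.H6.S4 (nc T NoTv finSub finOrd co co_inj co_apply M2 Ex ch2 um ui iu)
open scoped commutatorElement

universe u

variable {k V : Type*} [Field k] [AddCommGroup V] [Module k V] [FiniteDimensional k V]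
  {G : Type u} [Group G] {P : Subgroup (End k V)ˣ} {π : P →* G} {p : ℕ}
  {g g' x x' y : (End k V)ˣ}

theorem St.core (h : St P π) (hg : g ∈ P) : ∃ x ∈ ⁅P, P⁆, ∃ z ∈ P, Sc z ∧ g = z * x := by
  have e : commutator G = ⊤ := (h.sn.normal_cases _ inferInstance).resolve_left fun e =>
    h.sn.nc fun a b => commutatorElement_eq_one_iff_mul_comm.1 (Subgroup.mem_bot.1
      (e ▸ Subgroup.commutator_mem_commutator (Subgroup.mem_top a) (Subgroup.mem_top b)))
  obtain ⟨x, hx, e'⟩ : π ⟨g, hg⟩ ∈ (commutator P).map π := by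
    rw [commutator_def, Subgroup.map_commutator, ← MonoidHom.range_eq_map,
      MonoidHom.range_eq_top.2 h.surj, ← commutator_def, e]; trivial
  refine ⟨x, P.map_subtype_commutator ▸ ⟨x, hx, rfl⟩, _, (⟨g, hg⟩ * x⁻¹ : P).2,
    (h.ker _).1 (by rw [map_mul, map_inv, e', mul_inv_cancel]), by simp⟩

theorem St.perf (h : St P π) (f : ↥⁅P, P⁆ →* kˣ) (g : ↥⁅P, P⁆) : f g = 1 := by
  have : ⁅P, P⁆ ≤ f.ker.map (Subgroup.subtype _) := Subgroup.commutator_le.2 fun a ha b hb => by
    obtain ⟨x, hx, z, -, hz, rfl⟩ := h.core ha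
    obtain ⟨y, hy, w, -, hw, rfl⟩ := h.core hb
    refine ⟨⁅(⟨x, hx⟩ : ↥⁅P, P⁆), ⟨y, hy⟩⁆, by
      rw [SetLike.mem_coe, MonoidHom.mem_ker, map_commutatorElement, commutatorElement_eq_one_iff_mul_comm,
        mul_comm], ?_⟩
    show x * y * x⁻¹ * y⁻¹ = z * x * (w * y) * (z * x)⁻¹ * (w * y)⁻¹
    rw [show z * x * (w * y) * (z * x)⁻¹ = z * (x * w * y * x⁻¹) * z⁻¹ by group, hz.comm, ← hw.comm,
      mul_inv_cancel_right, show w * x * y * x⁻¹ * (w * y)⁻¹ = w * (x * y * x⁻¹ * y⁻¹) * w⁻¹ by group,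
      hw.comm, mul_inv_cancel_right]
  obtain ⟨x, hx, e⟩ := this g.2
  rwa [← show x = g from Subtype.ext e]

theorem St.nsS [IsAlgClosed k] (h : St P π) (ns : NoS P) (hx : x ∈ P) {e : End k V} (he : e * e = e)
    (re : rk e = 2) {a b : k} (q : x.1 = a • e + b • (1 - e)) : a * a = b * b := by
  have key : ∀ x ∈ P, ∀ a b : k, a * b = 1 → x.1 = a • e + b • (1 - e) → a * a = b * b := fun x hx a b ab q => by
    have : x⁻¹.1 = b • e + a • (1 - e) := Units.inv_eq_of_mul_eq_one_right (by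
      simp only [q, nc k V, he]; match_scalars <;> grind)
    rcases ns x hx (a + b) (by rw [T, this, q]; module) with ⟨c, hc⟩ | s
    · have k1 := congrArg (· * e) (q.symm.trans hc)
      have k2 := congrArg (· * (1 - e)) (q.symm.trans hc)
      simp only [nc k V, he] at k1 k2
      have e0 : e ≠ 0 := by rintro rfl; rw [rk, range_zero] at re; simp at re
      have e1 : 1 - e ≠ 0 := fun q => by
        rw [← sub_eq_zero.1 q, rk, End.one_eq_id, range_id, finrank_top, h.dim] at re; omega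
      rw [smul_left_injective k e0 (show a • e = c • e by linear_combination (norm := module) k1),
        smul_left_injective k e1 (show b • (1 - e) = c • (1 - e) by linear_combination (norm := module) k2)]
    · linear_combination (a - b) * s
  have d := h.det x hx
  have b0 : b ≠ 0 := by
    rintro rfl
    rw [q, zero_smul, add_zero, LinearMap.det_smul, show LinearMap.det e = 0 ^ rk (1 - e) by
      rw [← det_idem (by simp only [nc k V, he]; abel)]; simp, zero_pow (rk_pos fun q => by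
        rw [← sub_eq_zero.1 q, rk, End.one_eq_id, range_id, finrank_top, h.dim] at re; omega).ne'] at d
    simp at d
  rw [q, show a • e + b • (1 - e) = b • ((a / b) • e + (1 - e)) by match_scalars <;> field_simp <;> ring,
    LinearMap.det_smul, det_idem he, re, h.dim] at d
  rcases mul_self_eq_one_iff.1 (show a * b * (a * b) = 1 by rw [← d]; field_simp) with ab | ab
  · exact key x hx a b ab q
  · obtain ⟨i, hi⟩ := IsAlgClosed.exists_eq_mul_self (-1 : k)
    have i0 : i ≠ 0 := by rintro rfl; simp at hi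
    have := key _ (P.mul_mem (h.sc_mem i0 (by grind)) hx) (i * a) (i * b) (by grind) (by
      rw [Units.val_mul, sc_val, q]; simp only [nc k V]; module)
    grind

theorem St.nsS' [IsAlgClosed k] (h : St P π) (ns : NoS P) (hy : y ∈ P) {v v' : V} {φ φ' : Dual k V}
    (h1 : φ v = 1) (h2 : φ' v' = 1) (ha : φ v' * φ' v ≠ 1) {σ γ : k} (e1 : y.1 v = σ • v)
    (e2 : y.1 v' = σ • v') (e3 : ∀ u, φ u = 0 → φ' u = 0 → y.1 u = γ • u) : σ * σ = γ * γ := by
  have a0 := sub_ne_zero.2 ha.symm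
  let e : End k V := (1 - φ v' * φ' v)⁻¹ • ((φ - φ v' • φ').smulRight v + (φ' - φ' v • φ).smulRight v')
  have ea : ∀ u, e u = (1 - φ v' * φ' v)⁻¹ • ((φ u - φ v' * φ' u) • v + (φ' u - φ' v * φ u) • v') :=
    fun u => by simp [e]
  have ev : e v = v := by rw [ea, h1]; match_scalars <;> field_simp <;> ring
  have ev' : e v' = v' := by rw [ea, h2]; match_scalars <;> field_simp <;> ring
  refine h.nsS ns hy (e := e) (LinearMap.ext fun u => ?_) ?_ (LinearMap.ext fun u => ?_)
  · rw [End.mul_apply, ea u]; simp only [map_smul, map_add, ev, ev']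
  · rw [rk, show range e = range (co v v' : (Fin 2 → k) →ₗ[k] V) from le_antisymm (by
        rintro _ ⟨u, rfl⟩
        exact ⟨(1 - φ v' * φ' v)⁻¹ • ![_, _], by rw [map_smul, ea]; rfl⟩) (by
        rintro _ ⟨c, rfl⟩
        exact ⟨c 0 • v + c 1 • v', by simp [co_apply, ev, ev']⟩),
      finrank_range_of_inj (co_inj (by rintro rfl; simp at h1) fun c hc => ha (by
        rw [hc] at h2 ⊢; simpa [h1] using h2))]
    simp
  · have := e3 (u - e u) (by rw [ea]; simp [h1]; field_simp; ring) (by rw [ea]; simp [h2]; field_simp; ring)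
    rw [map_sub, sub_eq_iff_eq_add] at this
    rw [this, ea]; simp only [map_smul, map_add, e1, e2, LinearMap.add_apply, LinearMap.smul_apply,
      LinearMap.sub_apply, End.one_apply, ea]
    module

theorem ex_pow {M : M2 k} (h : M.det = 1) {κ : ℕ} (e : M = 1 ∨ M = -1 ∨ Ex κ M.trace) : M ^ 8 = 1 ∨
    (M.trace ^ 2 = 1 ∧ M ^ 6 = 1) ∨ (M.trace ^ 4 - 3 * M.trace ^ 2 + 1 = 0 ∧ M ^ 10 = 1) := by
  have c := ch2 h
  have c' : ∀ X : M2 k, M * (M * X) = M.trace • (M * X) - X := fun X => by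
    rw [← mul_assoc, c]; simp [sub_mul]
  generalize M.trace = t at c c' e
  rcases e with rfl | rfl | rfl | e | ⟨-, e⟩ | ⟨-, e⟩
  · simp
  · exact Or.inl (by rw [Even.neg_one_pow (by decide)])
  · left; simp only [pow_succ', pow_zero, mul_one, c, c', mul_sub, mul_smul_comm]; module
  · refine Or.inr (Or.inl ⟨e, ?_⟩)
    simp only [pow_succ', pow_zero, mul_one, c, c', mul_sub, mul_smul_comm]; match_scalars <;> grind
  · left; simp only [pow_succ', pow_zero, mul_one, c, c', mul_sub, mul_smul_comm]; match_scalars <;> grind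
  · refine Or.inr (Or.inr ⟨e, ?_⟩)
    simp only [pow_succ', pow_zero, mul_one, c, c', mul_sub, mul_smul_comm]; match_scalars <;> grind

/-- homologies -/
structure Ho (P : Subgroup (End k V)ˣ) (c μ : k) (x : (End k V)ˣ) (v : V) (φ : Dual k V) : Prop where
  mem : x ∈ P
  one : φ v = 1
  ap : ∀ u, x.1 u = c • (u + ((μ - 1) * φ u) • v)

variable {c μ : k} {v v' : V} {φ φ' : Dual k V}

theorem Ho.conj (h : Ho P c μ x v φ) (hg : g ∈ P) : Ho P c μ (g * x * g⁻¹) (g.1 v) (φ ∘ₗ g⁻¹.1) :=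
  ⟨P.mul_mem (P.mul_mem hg h.mem) (P.inv_mem hg), by simp [h.one], fun u => by simp [um, h.ap]⟩

theorem Ho.pow (h : Ho P c μ x v φ) (n : ℕ) : Ho P (c ^ n) (μ ^ n) (x ^ n) v φ :=
  ⟨P.pow_mem h.mem n, h.one, fun u => by
    induction n with
    | zero => simp
    | succ n ih => rw [pow_succ' x, um, ih, h.ap]; simp [h.one]; module⟩

theorem Ho.inv (h : Ho P c μ x v φ) (c0 : c ≠ 0) (m0 : μ ≠ 0) : Ho P c⁻¹ μ⁻¹ x⁻¹ v φ :=
  ⟨P.inv_mem h.mem, h.one, fun u => by
    rw [← ui x (c⁻¹ • _), h.ap]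
    congr 1
    simp [h.one]; match_scalars <;> field_simp <;> ring⟩

theorem Ho.rt (H : St P π) (h : Ho P c μ x v φ) : ∃ n, 0 < n ∧ c ^ n = 1 ∧ μ ^ n = 1 := by
  haveI := H.fin
  obtain ⟨n, n0, hn⟩ := isOfFinOrder_iff_pow_eq_one.1 (finOrd h.mem)
  have e := (h.pow n).ap
  rw [hn] at e
  obtain ⟨⟨u, hu⟩, u0⟩ := Module.finrank_pos_iff_exists_ne_zero.1 (show 0 < finrank k (ker φ) by
    have := finrank_range_add_finrank_ker φ
    have := (range φ).finrank_le
    rw [H.dim] at *; simp at *; omega)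
  have c1 : c ^ n = 1 := (smul_left_injective k (fun q => u0 (Subtype.ext q))
    (show (1 : k) • u = c ^ n • u by simpa [mem_ker.1 hu] using e u)).symm
  have := congrArg φ (e v)
  simp [c1, h.one] at this
  exact ⟨n, n0, c1, this.symm⟩

end Cfsg.Agent.H6.L4
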