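import Cfsg.Agent.H8.L4.Hm2a

/-! Reflections in perfect subgroups of `SL₄` produce quadratic elements of order four. -/

set_option autoImplicit false
set_option linter.unusedSimpArgs false
set_option linter.unusedSectionVars false
set_option linter.unusedVariables false

namespace Cfsg.Agent.H8.L4

open Module LinearMap Subgroup MulAction Cfsg.Agent.H6.S4

variable {k V : Type*} [Field k] [AddCommGroup V] [Module k V] [FiniteDimensional k V]
  {G : Type*} [Group G] [Finite G]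

theorem rk_pos {e : End k V} (h : e ≠ 0) : 0 < rk e :=
  Nat.pos_of_ne_zero fun h0 => h (range_eq_bot.1 (Submodule.finrank_eq_zero.1 h0))

theorem rk_lt {f e : End k V} (hf : f * f = f) (h1 : f * e = f) (h2 : e * f = f) (h : f ≠ e) :
    rk f < rk e := by
  refine Submodule.finrank_lt_finrank_of_lt (lt_of_le_of_ne (h2 ▸ range_comp_le_range f e) fun q => h ?_)
  ext v
  obtain ⟨u, hu⟩ : e v ∈ range f := q ▸ mem_range_self e v
  rw [← h1, End.mul_apply, ← hu, ← End.mul_apply, hf]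

theorem rk_one {f y : End k V} (hf : f * f = f) (h : rk f = 1) (c : y * f = f * y) :
    ∃ l : k, y * f = l • f := by
  obtain ⟨⟨u, hu⟩, u0, h⟩ := finrank_eq_one_iff'.1 h
  obtain ⟨l, hl⟩ := h ⟨y u, let ⟨v, hv⟩ := hu; ⟨y v, by rw [← hv, ← End.mul_apply, ← c]; rfl⟩⟩
  refine ⟨l, LinearMap.ext fun v => ?_⟩
  obtain ⟨t, ht⟩ := h ⟨f v, mem_range_self f v⟩
  replace hl : l • u = y u := congrArg Subtype.val hl
  replace ht : t • u = f v := congrArg Subtype.val ht
  rw [End.mul_apply, LinearMap.smul_apply, ← ht, map_smul, ← hl, smul_comm]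

theorem tr_anti (h2 : (2 : k) ≠ 0) {x z : End k V} (h : x * z = -(z * x)) : trace k V (x * (z * z)) = 0 := by
  have : trace k V (x * (z * z)) = -trace k V (x * (z * z)) := by
    conv_lhs => rw [← mul_assoc, h, neg_mul, map_neg, mul_assoc, trace_mul_comm, mul_assoc]
  exact (mul_eq_zero.1 (show 2 * trace k V (x * (z * z)) = 0 by linear_combination this)).resolve_left h2

theorem half_idem (h2 : (2 : k) ≠ 0) {z e : End k V} (he : e * e = e) (h1 : z * z = e) (h3 : z * e = z)
    (h4 : e * z = z) (n1 : z ≠ e) (n2 : z ≠ -e) : ∃ f : End k V, z = (2 : k) • f - e ∧ f * f = f ∧ f * e = f ∧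
      e * f = f ∧ f ≠ e ∧ f ≠ 0 := by
  have z2 : z = (2 : k) • (2 : k)⁻¹ • (e + z) - e := by rw [smul_inv_smul₀ h2]; simp
  refine ⟨_, z2, ?_, by simp [add_mul, he, h3], by simp [mul_add, he, h4], fun h => n1 ?_, fun h => n2 ?_⟩
  · simp only [nc k V, he, h1, h3, h4]
    match_scalars <;> field_simp <;> ring
  · rw [z2, h]; module
  · rw [z2, h]; simp

variable (ρ : G →* End k V)

/-- determinant on the image of an idempotent -/
noncomputable def dd (e x : End k V) : k := LinearMap.det (x * e + (1 - e))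

theorem dd_mul {e y : End k V} (he : e * e = e) (h : y * e = e * y) (x : End k V) :
    dd e (x * y) = dd e x * dd e y := by
  rw [dd, dd, dd, ← map_mul]
  congr 1
  have : e * (y * e) = y * e := by rw [← mul_assoc, ← h, mul_assoc, he]
  simp only [nc k V, he, this]; abel

theorem dd_smul {e x : End k V} (he : e * e = e) {c : k} (h : x * e = c • e) : dd e x = c ^ rk e := by
  rw [dd, h, det_idem he]

/-- the centraliser of an endomorphism -/
def Cz (z : End k V) : Subgroup G where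
  carrier := {x | ρ x * z = z * ρ x}
  one_mem' := by simp
  mul_mem' := fun {x y} (a : _ = _) (b : _ = _) => show _ = _ by
    rw [map_mul, mul_assoc, b, ← mul_assoc, a, mul_assoc]
  inv_mem' := fun {x} (a : _ = _) => show _ = _ by
    rw [← one_mul (z * _), ← map_one ρ, ← inv_mul_cancel x, map_mul, mul_assoc, ← mul_assoc (ρ x), a,
      mul_assoc, ← map_mul, mul_inv_cancel, map_one, mul_one]

theorem inv_rk (hG : ∀ (f : G →* kˣ) (g : G), f g = 1) (h2 : (2 : k) ≠ 0) {u : G} {i : k} (hi : i * i = -1)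
    (hu : ρ u = i • 1) (T : Subgroup G) {e : End k V} (he : e * e = e) (hT : T ≤ Cz ρ e) :
    4 ∣ rk e * T.index := by
  have := trz hG T ⟨⟨fun x => dd e (ρ x), by simp [dd]⟩, fun x y => by
    simp only [coe_mul, map_mul]; exact dd_mul he (hT y.2) _⟩ u (c := i ^ rk e) fun g n hm => by
      rw [← pow_mul, mul_comm, pow_mul]
      refine dd_smul he ?_
      simp only [map_mul, map_pow, hu, _root_.smul_pow, one_pow, mul_smul_comm, smul_mul_assoc, mul_one]
      rw [← map_mul, inv_mul_cancel, map_one, one_mul]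
  rw [← pow_mul] at this
  have o : orderOf i = 2 ^ 2 := orderOf_eq_prime_pow (p := 2) (n := 1)
    (fun h => h2 (by linear_combination hi - h)) (by linear_combination (i * i - 1) * hi)
  exact (show 4 = orderOf i from o.symm) ▸ orderOf_dvd_of_pow_eq_one this

set_option maxHeartbeats 1600000 in
theorem hm2 [IsAlgClosed k] (h2 : (2 : k) ≠ 0) (h4 : finrank k V = 4) (inj : Function.Injective ρ)
    (hG : ∀ (f : G →* kˣ) (g : G), f g = 1) (hd : ∀ g, LinearMap.det (ρ g) = 1) {g : G} {i : k}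
    (hi : i * i = -1) (hg : ρ g * ρ g = i • 1) (ht : trace k V (ρ g) ≠ 0) :
    ∃ (x : G) (e : End k V) (a b : k), e * e = e ∧ rk e = 2 ∧ b * b = -(a * a) ∧
      ρ x = a • e + b • (1 - e) := by
  by_contra! hn
  haveI := Fact.mk Nat.prime_two
  have r1 : rk (1 : End k V) = 4 := by rw [rk, End.one_eq_id, range_id, finrank_top, h4]
  have o0 : (1 : End k V) ≠ 0 := fun h => by rw [h, rk, range_zero] at r1; simp at r1
  have ns : ∀ {e : End k V}, e * e = e → rk e = 2 → ∀ (n : ℕ) (x : G) (a b : k), x ^ 2 ^ n = 1 →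
      ρ x = a • e + b • (1 - e) → a * a = b * b := fun {e} he re n => by
    induction n with
    | zero =>
      intro x a b hx h
      rw [show x = 1 by simpa using hx, map_one] at h
      have k1 : (a - 1) • e = 0 := by
        have := congrArg (· * e) h
        simp only [nc k V, he] at this
        linear_combination (norm := module) -this
      have k2 : (b - 1) • (1 - e) = 0 := by linear_combination (norm := module) -h - k1
      rw [sub_eq_zero.1 ((smul_eq_zero.1 k1).resolve_right (by rintro rfl; rw [rk, range_zero] at re; simp at re)),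
        sub_eq_zero.1 ((smul_eq_zero.1 k2).resolve_right fun h => by rw [← sub_eq_zero.1 h] at re; omega)]
    | succ n ih =>
      intro x a b hx h
      have := ih (x * x) (a * a) (b * b) (by rw [← sq, ← pow_mul, ← pow_succ', hx]) (by
        simp only [map_mul, h, nc k V, he]; module)
      exact (mul_self_eq_mul_self_iff.1 this).resolve_right fun q => hn x e a b he re (by rw [q, neg_neg]) h
  obtain ⟨S, hS⟩ := (IsPGroup.of_card (p := 2) (G := zpowers g) (n := _) (by
    rw [Nat.card_zpowers]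
    exact ((Nat.dvd_prime_pow Nat.prime_two).1 (orderOf_dvd_of_pow_eq_one (show g ^ 2 ^ 3 = 1 from inj (by
      rw [show 2 ^ 3 = 2 * 4 from rfl, pow_mul, map_pow, sq, map_mul, hg, _root_.smul_pow, one_pow,
        show i ^ 4 = 1 by linear_combination (i * i - 1) * hi, one_smul, map_one])))).choose_spec.2)).exists_le_sylow
  replace hS : g ∈ S.1 := hS (mem_zpowers g)
  have so : Odd S.1.index := Nat.odd_iff.2 (Nat.two_dvd_ne_zero.1 S.not_dvd_index)
  have hP := S.isPGroup'
  generalize S.1 = S at hS so hP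
  have rk' := inv_rk ρ hG h2 hi ((map_mul ρ g g).trans hg)
  obtain ⟨z, z1, -, -, z2, z3, hz⟩ := cen2 ρ h2 hP (one_mul 1) o0 (fun x _ => by simp) ⟨g, hS, fun c h => by
    rw [mul_one] at h
    have a := hd g
    rw [h, smul_mul_smul_comm, one_mul] at hg
    rw [h, LinearMap.det_smul, h4, map_one] at a
    exact h2 (by linear_combination hi - a + (c * c + i) * smul_left_injective k o0 hg)⟩
  obtain ⟨e, ze, he, -, -, e1, e0⟩ := half_idem h2 (one_mul 1) z1 (mul_one z) (one_mul z) z2 z3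
  have ea := rk_pos e0
  have eb := rk_lt he (mul_one e) (one_mul e) e1
  have cm : ∀ {z f e y : End k V}, z = (2 : k) • f - e → y * e = e * y → (y * z = z * y → y * f = f * y) ∧
      (y * z = -(z * y) → y * f = (e - f) * y) := fun h a => by
    constructor <;> intro b <;> apply smul_right_injective _ h2 <;> simp only [h, nc k V] at b ⊢
    · linear_combination (norm := module) b + a
    · linear_combination (norm := module) b + a
  obtain ⟨w, wS, hw⟩ : ∃ w ∈ S, ρ w * z = -(z * ρ w) := by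
    by_contra! h
    have := (Nat.Coprime.pow_left 2 (Nat.coprime_two_left.2 so)).dvd_of_dvd_mul_right
      (rk' S he fun x hx => (cm ze (by simp)).1 ((hz x hx).resolve_right (h x hx)))
    omega
  have iv : ∀ x : G, ρ x⁻¹ * ρ x = 1 := fun x => by rw [← map_mul, inv_mul_cancel, map_one]
  have vi : ∀ x : G, ρ x * ρ x⁻¹ = 1 := fun x => by rw [← map_mul, mul_inv_cancel, map_one]
  have re : rk e = 2 := by
    have t : trace k V z = -trace k V z := by
      conv_lhs => rw [← one_mul z, ← iv w, mul_assoc, hw, mul_neg, map_neg, trace_mul_comm, mul_assoc, vi,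
        mul_one]
    rw [ze, map_sub, map_smul, (IsIdempotentElem.isProj_range e he).trace, trace_one, h4, smul_eq_mul] at t
    have : ((rk e : ℕ) : k) = 2 := mul_left_cancel₀ (mul_ne_zero h2 h2) (by push_cast at t; linear_combination t)
    have h : rk e = 1 ∨ rk e = 2 ∨ rk e = 3 := by omega
    rcases h with h | h | h
    · rw [h] at this; exact (one_ne_zero' k (by push_cast at this; linear_combination -this)).elim
    · exact h
    · rw [h] at this; exact (one_ne_zero' k (by push_cast at this; linear_combination this)).elim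
  have we : ρ w * e = (1 - e) * ρ w := (cm ze (by simp)).2 hw
  have ew : e * ρ w = ρ w * (1 - e) := by rw [mul_sub, we]; simp [sub_mul]
  have an : ∀ x ∈ S, x ∉ Cz ρ z → ρ x * z = -(z * ρ x) := fun x hx h => (hz x hx).resolve_left h
  have nc' : ∀ {x : G} {z : End k V}, z ≠ 0 → ∀ {s t : k}, s • (z * ρ x) = t • (z * ρ x) → s = t :=
    fun {x z} z0 s t h => smul_left_injective k (fun q => z0 (by
      rw [← mul_one z, ← vi x, ← mul_assoc, q, zero_mul])) h
  have z0 : z ≠ 0 := fun h => o0 (by rw [← z1, h, zero_mul])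
  have wn : w ∉ Cz ρ z := fun h => h2 (by
    linear_combination nc' z0 (s := 1) (t := -1) (by simpa using (show _ = _ from h).symm.trans hw))
  have aa : ∀ x ∈ S, x ∉ Cz ρ z → ∀ y ∈ S, y ∉ Cz ρ z → x * y ∈ Cz ρ z := fun x a b y c d => show _ = _ by
    rw [map_mul, mul_assoc, an y c d, mul_neg, ← mul_assoc, an x a b, neg_mul, neg_neg, mul_assoc]
  obtain ⟨T, hT⟩ : ∃ T : Subgroup G, T = S ⊓ Cz ρ z := ⟨_, rfl⟩
  have mT : ∀ {x}, x ∈ T ↔ x ∈ S ∧ x ∈ Cz ρ z := hT ▸ mem_inf
  have Te : ∀ x ∈ T, ρ x * e = e * ρ x := fun x hx => (cm ze (by simp)).1 (mT.1 hx).2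
  have wi : w⁻¹ ∉ Cz ρ z := fun h => wn (by simpa using inv_mem h)
  have cj : ∀ x ∈ T, w * x * w⁻¹ ∈ T := fun x hx => mT.2 ⟨mul_mem (mul_mem wS (mT.1 hx).1) (inv_mem wS),
    aa _ (mul_mem wS (mT.1 hx).1) (fun h => wn ((mul_mem_cancel_right (mT.1 hx).2).1 h)) _ (inv_mem wS) wi⟩
  have cj' : ∀ x ∈ T, w⁻¹ * x * w ∈ T := fun x hx => mT.2 ⟨mul_mem (mul_mem (inv_mem wS) (mT.1 hx).1) wS,
    aa _ (mul_mem (inv_mem wS) (mT.1 hx).1) (fun h => wi ((mul_mem_cancel_right (mT.1 hx).2).1 h)) _ wS wn⟩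
  obtain ⟨α, hα⟩ : ∃ α : G → k, ∀ x, α x = dd e (ρ x) := ⟨_, fun _ => rfl⟩
  have αm : ∀ x, ∀ y ∈ T, α (x * y) = α x * α y := fun x y hy => by
    simp only [hα, map_mul]; exact dd_mul he (Te y hy) _
  have αs : ∀ x c, ρ x * e = c • e → α x = c ^ 2 := fun x c h => by rw [hα, dd_smul he h, re]
  have cw : ∀ x : G, ρ (w * x * w⁻¹) * e = ρ w * (ρ x * (1 - e)) * ρ w⁻¹ := fun x => by
    have : ρ w⁻¹ * e = (1 - e) * ρ w⁻¹ := by
      have := congrArg (fun X => ρ w⁻¹ * X * ρ w⁻¹) ew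
      simp only [mul_assoc, vi, mul_one] at this
      simpa only [← mul_assoc, iv, one_mul] using this
    simp only [map_mul, mul_assoc, this]
  have αβ : ∀ x ∈ T, α x * α (w * x * w⁻¹) = 1 := fun x hx => by
    have : ρ (w * x * w⁻¹) * e + (1 - e) = ρ w * (ρ x * (1 - e) + e) * ρ w⁻¹ := by
      rw [cw, mul_add, add_mul, we, mul_assoc (1 - e), vi, mul_one]
    simp only [hα, dd]
    rw [this, map_mul, map_mul, hd, hd, one_mul, mul_one, ← map_mul, ← hd x]
    congr 1
    have a := Te x hx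
    have b : e * (ρ x * e) = ρ x * e := by rw [← mul_assoc, ← a, mul_assoc, he]
    simp only [nc k V, he, b, ← a]
    abel
  have α4 : ∀ x ∈ T, ∀ a b : k, ρ x * ρ x * e = a • e → ρ (w * x * w⁻¹) * ρ (w * x * w⁻¹) * e = b • e →
      α x ^ 4 = 1 := fun x hx a b h1 h3 => by
    obtain ⟨n, hn⟩ := hP ⟨x * x, (mT.1 (mul_mem hx hx)).1⟩
    have q1 := αs _ _ ((map_mul ρ x x).symm ▸ h1)
    have q2 := αs _ _ ((map_mul ρ _ _).symm ▸ h3)
    rw [← map_mul, conj_mul, cw] at h3
    have := ns he re n (x * x) a b (congrArg Subtype.val hn) (by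
      have : ρ (x * x) * (1 - e) = b • (1 - e) := by
        have := congrArg (fun X => ρ w⁻¹ * X * ρ w) h3
        simp only [mul_assoc, iv, mul_one, smul_mul_assoc, mul_smul_comm, ew] at this
        simpa only [← mul_assoc, iv, one_mul] using this
      rw [← this, ← h1, map_mul]; noncomm_ring)
    rw [αm _ _ hx] at q1
    rw [αm _ _ (cj x hx)] at q2
    have q3 := αβ x hx
    grind
  have fin : ∀ F : G → k, F 1 = 1 → (∀ x ∈ T, ∀ y ∈ T, F (x * y) = F x * F y) →
      (∀ x ∈ T, F (w * x * w⁻¹) = F x) → (∀ x (c : k), ρ x = c • 1 → F x = c ^ 4) →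
      (∀ x ∈ T, ∀ d : k, d * d = -1 → ρ x * ρ x = d • 1 → trace k V (ρ x) ≠ 0 → F x = -1) → False :=
    fun F f1 f2 f3 f4 f5 => by
    obtain ⟨f, hf⟩ := ext2 (T.subgroupOf S) (fun x a y b => mT.2 ⟨mul_mem x.2 y.2,
      aa _ x.2 (fun h => a (mT.2 ⟨x.2, h⟩)) _ y.2 fun h => b (mT.2 ⟨y.2, h⟩)⟩)
      ⟨⟨fun x => F x.1.1, f1⟩, fun x y => f2 _ x.2 _ y.2⟩ (w := ⟨w, wS⟩) (fun h => wn (mT.1 h).2)
      fun x _ => f3 _ x.2
    have := trz hG S f g (c := -1) fun y n hm => by
      have q : ∀ m, ρ (g ^ (2 * m)) = i ^ m • 1 := fun m => by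
        rw [pow_mul, sq, map_pow, map_mul, hg, _root_.smul_pow, one_pow]
      obtain ⟨m, rfl | rfl⟩ := Nat.even_or_odd' n
      · have a : ρ (y⁻¹ * g ^ (2 * m) * y) = i ^ m • 1 := by simp [map_mul, q, iv, -map_pow]
        refine (hf ⟨_, mT.2 ⟨hm, show _ = _ by simp [a]⟩⟩).trans ((f4 _ _ a).trans ?_)
        rw [← pow_mul, mul_comm m, pow_mul, pow_mul, show i ^ 4 = 1 by linear_combination (i * i - 1) * hi]
        simp
      have t : trace k V (ρ (y⁻¹ * g ^ (2 * m + 1) * y)) ≠ 0 := by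
        rw [map_mul, trace_mul_comm, ← map_mul, ← mul_assoc, mul_inv_cancel, one_mul, pow_succ,
          map_mul, q, smul_mul_assoc, one_mul, map_smul]
        exact mul_ne_zero (pow_ne_zero _ (by rintro rfl; simp at hi)) ht
      have m : _ ∈ T := mT.2 ⟨hm, by_contra fun h => t (by simpa [z1] using tr_anti h2 (an _ hm h))⟩
      rw [hf ⟨⟨_, hm⟩, m⟩, Odd.neg_one_pow (odd_two_mul_add_one _)]
      refine f5 _ m (i ^ (2 * _ + 1)) ?_ (by
        rw [← map_mul, show ∀ u : G, y⁻¹ * u * y * (y⁻¹ * u * y) = y⁻¹ * (u * u) * y from fun u => by group,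
          ← pow_add, ← two_mul]
        simp [map_mul, q, iv, -map_pow]; rfl) t
      rw [← mul_pow, hi, Odd.neg_one_pow (odd_two_mul_add_one _)]
    exact h2 (by rw [so.neg_one_pow] at this; linear_combination -this)
  have α1 : α 1 = 1 := by simp [hα, dd]
  have αr : ∀ x ∈ T, ∀ d : k, d * d = -1 → ρ x * ρ x = d • 1 → α x ^ 2 = -1 := fun x hx d a b => by
    rw [sq, ← αm _ _ hx, αs _ d (by rw [map_mul, b]; simp), sq, a]
  have good : ¬ ∀ x ∈ T, α x ^ 4 = 1 := fun h => fin (fun x => α x ^ 2) (by simp [α1])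
    (fun x _ y hy => by simp only [αm x y hy, mul_pow])
    (fun x hx => by have := h x hx; have := αβ x hx; grind)
    (fun x c a => by simp only [αs x c (by simp [a]), ← pow_mul]) fun x hx d a b _ => αr x hx d a b
  obtain ⟨z', y1, y2, y3, y4, y5, hz'⟩ := cen2 ρ h2 (hP.to_le (hT ▸ inf_le_left : T ≤ S)) he e0 Te (by
    by_contra! h
    refine good fun x hx => ?_
    obtain ⟨a, ha⟩ := h x hx
    obtain ⟨b, hb⟩ := h _ (cj x hx)
    exact α4 x hx (a * a) (b * b) (by rw [mul_assoc, ha, mul_smul_comm, ha, smul_smul])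
      (by rw [mul_assoc, hb, mul_smul_comm, hb, smul_smul]))
  obtain ⟨f, zf, hf, fe, ef, f1, f0⟩ := half_idem h2 he y1 y2 y3 y4 y5
  have rf : rk f = 1 := by have := rk_pos f0; have := rk_lt hf fe ef f1; omega
  have z0' : z' ≠ 0 := fun h => e0 (by rw [← y1, h, zero_mul])
  have ex : ∀ x, ∃ s : k, s * s = 1 ∧ (x ∉ T → s = 1) ∧ (x ∈ T → ρ x * z' = s • (z' * ρ x)) := fun x => by
    by_cases hx : x ∈ T
    · rcases hz' x hx with h | h
      exacts [⟨1, by simp, fun _ => rfl, fun _ => by simpa using h⟩,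
        ⟨-1, by simp, fun h => (h hx).elim, fun _ => by simpa using h⟩]
    · exact ⟨1, by simp, fun _ => rfl, fun h => (hx h).elim⟩
  choose s s1 s2 hs using ex
  have sm : ∀ x ∈ T, ∀ y ∈ T, s (x * y) = s x * s y := fun x hx y hy => nc' (x := x * y) z0' (by
    rw [← hs _ (mul_mem hx hy), map_mul, mul_assoc, hs y hy, mul_smul_comm, ← mul_assoc, hs x hx]
    simp [smul_smul, mul_comm, mul_assoc])
  have sq' : ∀ x ∈ T, s x = -1 → ∃ l : k, ρ x * ρ x * e = l • e := fun x hx h => by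
    have a : ρ x * z' = -(z' * ρ x) := by simpa [h] using hs x hx
    have b := (cm zf (Te x hx)).2 a
    have c := (cm zf (y := ρ x * ρ x) (by rw [mul_assoc, Te x hx, ← mul_assoc, Te x hx, mul_assoc])).1 (by
      rw [mul_assoc, a, mul_neg, ← mul_assoc, a, neg_mul, neg_neg, mul_assoc])
    obtain ⟨l, hl⟩ := rk_one hf rf c
    refine ⟨l, ?_⟩
    have d : ρ x * ρ x * (e - f) = l • (e - f) := by
      rw [← mul_one (e - f), ← vi x, ← mul_assoc (e - f), ← b, ← smul_mul_assoc, ← mul_smul_comm, ← hl]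
      simp only [mul_assoc]
    rw [← add_sub_cancel f e, mul_add, hl, d, smul_add]
  obtain ⟨x₁, m₁, s₁⟩ : ∃ x ∈ T, s x = -1 := by
    by_contra! h
    have := rk' T hf fun x hx => (cm zf (Te x hx)).1 (by
      simpa [(mul_self_eq_one_iff.1 (s1 x)).resolve_right (h x hx)] using hs x hx)
    rw [rf, ← relIndex_mul_index (hT ▸ inf_le_left : T ≤ S), relIndex_eq_two_iff.2 ⟨w, wS, fun b hb => by
      by_cases h : b ∈ T
      · exact Or.inr ⟨h, fun q => wn (mT.1 ((mul_mem_cancel_left h).1 q)).2⟩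
      · exact Or.inl ⟨mT.2 ⟨mul_mem hb wS, aa _ hb (fun q => h (mT.2 ⟨hb, q⟩)) _ wS wn⟩, h⟩⟩] at this
    obtain ⟨m, hm⟩ := so
    omega
  obtain ⟨t, ht'⟩ : ∃ t : G → k, ∀ x, t x = s (w * x * w⁻¹) := ⟨_, fun _ => rfl⟩
  have tm : ∀ x ∈ T, ∀ y ∈ T, t (x * y) = t x * t y := fun x hx y hy => by
    rw [ht', ht', ht', ← conj_mul, sm _ (cj x hx) _ (cj y hy)]
  have pm : ∀ x, (s x = 1 ∨ s x = -1) ∧ (t x = 1 ∨ t x = -1) := fun x =>
    ⟨mul_self_eq_one_iff.1 (s1 x), ht' x ▸ mul_self_eq_one_iff.1 (s1 _)⟩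
  have b4 : ∀ x ∈ T, s x = -1 → t x = -1 → α x ^ 4 = 1 := fun x hx a b =>
    let ⟨l, hl⟩ := sq' x hx a
    let ⟨m, hm⟩ := sq' _ (cj x hx) (ht' x ▸ b)
    α4 x hx l m hl hm
  obtain ⟨x₀, m₀, s₀, t₀⟩ : ∃ x ∈ T, s x = -1 ∧ t x = -1 := by
    have m₂ := cj' _ m₁
    have t₂ : t (w⁻¹ * x₁ * w) = -1 := by rw [ht', ← s₁]; congr 1; group
    rcases (pm x₁).2 with a | a
    · rcases (pm (w⁻¹ * x₁ * w)).1 with b | b
      · exact ⟨_, mul_mem m₁ m₂, by rw [sm _ m₁ _ m₂, s₁, b, mul_one], by rw [tm _ m₁ _ m₂, t₂, a, one_mul]⟩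
      · exact ⟨_, m₂, b, t₂⟩
    · exact ⟨_, m₁, s₁, a⟩
  have c4 : ∀ x ∈ T, s x = t x → α x ^ 4 = 1 := fun x hx h => by
    rcases (pm x).1 with a | a
    · have := b4 _ (mul_mem hx m₀) (by rw [sm _ hx _ m₀, a, s₀, one_mul])
        (by rw [tm _ hx _ m₀, ← h, a, t₀, one_mul])
      rwa [αm _ _ m₀, mul_pow, b4 _ m₀ s₀ t₀, mul_one] at this
    · exact b4 x hx a (h ▸ a)
  have pn : ∀ x, s x ≠ t x → s x = -t x := fun x h =>
    (mul_self_eq_mul_self_iff.1 (by rw [s1, ht', s1])).resolve_left h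
  push Not at good
  obtain ⟨y, hy, y4⟩ := good
  have ys : s y = -t y := by
    exact pn _ (mt (c4 y hy) y4)
  have y8 : α y ^ 4 = -1 := by
    have := c4 _ (mul_mem hy hy) (by rw [sm _ hy _ hy, tm _ hy _ hy, ys, neg_mul_neg])
    rw [αm _ _ hy, mul_pow] at this
    exact (mul_self_eq_one_iff.1 this).resolve_left y4
  have bad : ∀ x ∈ T, α x ^ 4 = s x * t x := fun x hx => by
    by_cases h : s x = t x
    · rw [c4 x hx h, ← h, s1]
    have xs : s x = -t x := pn x h
    have := c4 _ (mul_mem hx hy) (by rw [sm _ hx _ hy, tm _ hx _ hy, ys, xs, neg_mul_neg])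
    rw [αm _ _ hy, mul_pow, y8] at this
    rw [xs, neg_mul, ht', s1]; linear_combination -this
  have ss : ∀ x (c : k), ρ x = c • 1 → s x = 1 := fun x c h => by
    by_cases m : x ∈ T
    · exact nc' (x := x) z0' (by rw [← hs x m, one_smul, h]; simp)
    · exact s2 x m
  refine fin (fun x => s x * α x ^ 2) (by simp [α1, ss 1 1 (by simp)])
    (fun x hx y hy => by simp only [αm x y hy, sm x hx y hy]; ring) (fun x hx => ?_)
    (fun x c a => by simp only [αs x c (by simp [a]), ← pow_mul, ss x c a, one_mul]) fun x hx d a b c => ?_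
  · have := bad x hx; have := αβ x hx; have := s1 x
    simp only [← ht']
    grind
  have q := αr x hx d a b
  have q1 := bad x hx
  rcases pm x with ⟨a1 | a1, b1⟩
  · simp [a1, q]
  have b2 : t x = -1 := by rw [a1] at q1; linear_combination q1 - (α x ^ 2 - 1) * q
  refine (c ?_).elim
  have t1 := tr_anti h2 (show ρ x * z' = -(z' * ρ x) by simpa [a1] using hs x hx)
  have t2 := tr_anti h2 (show ρ (w * x * w⁻¹) * z' = -(z' * _) by simpa [-map_mul, ← ht', b2] using hs _ (cj x hx))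
  rw [y1] at t1 t2
  rw [cw, trace_mul_comm, ← mul_assoc, iv, one_mul, mul_sub, map_sub, t1] at t2
  simpa using t2

end Cfsg.Agent.H8.L4
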