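import Cfsg.Agent.H6.S4.A0

/-! Reflections in perfect subgroups of `SL₄`: tools. -/

set_option autoImplicit false
set_option linter.unusedSimpArgs false
set_option linter.unusedSectionVars false
set_option linter.unusedVariables false

namespace Cfsg.Agent.H8.L4

open Module LinearMap Subgroup MulAction Cfsg.Agent.H6.S4

variable {k V : Type*} [Field k] [AddCommGroup V] [Module k V] [FiniteDimensional k V]
  {G : Type*} [Group G] [Finite G]

/-- the rank -/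
noncomputable abbrev rk (e : End k V) : ℕ := finrank k (range e)

theorem det_idem {e : End k V} (he : e * e = e) (c : k) :
    LinearMap.det (c • e + (1 - e)) = c ^ rk e := by
  have h := IsIdempotentElem.isProj_range e he
  have e1 := h.eq_conj_prodMap
  generalize Submodule.prodEquivOfIsCompl _ _ h.isCompl = E at e1
  have : c • e + (1 - e) = E.conj (prodMap (c • LinearMap.id) LinearMap.id) := by
    rw [show prodMap (c • LinearMap.id) LinearMap.id = c • prodMap (LinearMap.id : range e →ₗ[k] _)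
      (0 : ker e →ₗ[k] ker e) + (LinearMap.id - prodMap LinearMap.id 0) by ext <;> simp, map_add, map_sub, map_smul, ← e1, LinearEquiv.conj_id]
    rfl
  rw [this, LinearEquiv.conj_apply, comp_assoc, LinearMap.det_conj, det_prodMap]
  simp

theorem trz (hG : ∀ (f : G →* kˣ) (g : G), f g = 1) (T : Subgroup G) (f : T →* k) (u : G) {c : k}
    (key : ∀ (g : G) (n : ℕ) (hm : g⁻¹ * u ^ n * g ∈ T), f ⟨_, hm⟩ = c ^ n) : c ^ T.index = 1 := by
  have : Fintype (Quotient (orbitRel (zpowers u) (G ⧸ T))) := Fintype.ofFinite _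
  have e := congrArg Units.val (hG (MonoidHom.transfer f.toHomUnits) u)
  rw [MonoidHom.transfer_eq_prod_quotient_orbitRel_zpowers_quot, Units.coe_prod] at e
  simp only [MonoidHom.coe_toHomUnits] at e
  rwa [Finset.prod_congr rfl fun _ _ => key _ _ _, Finset.prod_pow_eq_pow_sum,
    ← index_eq_sum_minimalPeriod T u] at e

theorem ext2 [IsAlgClosed k] {S : Type*} [Group S] (T : Subgroup S) (hT : ∀ x ∉ T, ∀ y ∉ T, x * y ∈ T)
    (F : T →* k) {w : S} (hw : w ∉ T)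
    (inv : ∀ (x : T) (h : w * x * w⁻¹ ∈ T), F ⟨_, h⟩ = F x) : ∃ f : S →* k, ∀ x : T, f x = F x := by
  classical
  have w' : w⁻¹ ∉ T := fun h => hw (by simpa using inv_mem h)
  obtain ⟨κ, hκ⟩ := IsAlgClosed.exists_eq_mul_self (F ⟨_, hT w hw w hw⟩)
  let f : S → k := fun x => if h : x ∈ T then F ⟨x, h⟩ else F ⟨_, hT x h _ w'⟩ * κ
  have f1 : ∀ x (h : x ∈ T), f x = F ⟨x, h⟩ := fun x h => dif_pos h
  have f2 : ∀ x (h : x ∉ T), f x = F ⟨_, hT x h _ w'⟩ * κ := fun x h => dif_neg h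
  have m : ∀ {a b c : S} (ha : a ∈ T) (hb : b ∈ T) (hc : c ∈ T), c = a * b →
      F ⟨c, hc⟩ = F ⟨a, ha⟩ * F ⟨b, hb⟩ := fun ha hb hc e => by rw [← map_mul]; congr 1; exact Subtype.ext e
  have cj : ∀ y ∈ T, w * y * w⁻¹ ∈ T := fun y hy =>
    hT _ (fun h => hw ((T.mul_mem_cancel_right hy).1 h)) _ w'
  refine ⟨⟨⟨f, by rw [f1 1 (one_mem _)]; exact map_one F⟩, fun x y => ?_⟩, fun x => f1 _ x.2⟩
  show f (x * y) = f x * f y
  by_cases hx : x ∈ T <;> by_cases hy : y ∈ T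
  · rw [f1 _ hx, f1 _ hy, f1 _ (mul_mem hx hy), m hx hy _ rfl]
  · rw [f1 _ hx, f2 _ hy, f2 _ fun h => hy ((T.mul_mem_cancel_left hx).1 h), m hx _ _ (mul_assoc _ _ _),
      mul_assoc]
  · rw [f2 _ hx, f1 _ hy, f2 _ fun h => hx ((T.mul_mem_cancel_right hy).1 h),
      m (hT x hx _ w') (cj y hy) _ (by group), inv ⟨y, hy⟩]
    ring
  · rw [f2 _ hx, f2 _ hy, f1 _ (hT x hx y hy), m (mul_mem (hT x hx _ w') (cj _ (hT y hy _ w')))
      (hT w hw w hw) _ (by group), m (hT x hx _ w') (cj _ (hT y hy _ w')) _ rfl, inv ⟨_, hT y hy _ w'⟩, hκ]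
    ring

variable (ρ : G →* End k V)

theorem cen2 [IsAlgClosed k] (h2 : (2 : k) ≠ 0) {T : Subgroup G} (hT : IsPGroup 2 T) {e : End k V}
    (he : e * e = e) (e0 : e ≠ 0) (hc : ∀ x ∈ T, ρ x * e = e * ρ x)
    (hx : ∃ x ∈ T, ∀ c : k, ρ x * e ≠ c • e) : ∃ z : End k V, z * z = e ∧ z * e = z ∧ e * z = z ∧
      z ≠ e ∧ z ≠ -e ∧ ∀ x ∈ T, ρ x * z = z * ρ x ∨ ρ x * z = -(z * ρ x) := by
  have iv : ∀ x : G, ρ x⁻¹ * ρ x = 1 := fun x => by rw [← map_mul, inv_mul_cancel, map_one]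
  have c0 : ∀ (x : G) (c : k), ρ x * e = c • e → c ≠ 0 := fun x c h c0 => e0 (by
    rw [← one_mul e, ← iv x, mul_assoc, h, c0, zero_smul, mul_zero])
  let N : Subgroup T :=
    { carrier := {x | ∃ c : k, ρ x * e = c • e}
      one_mem' := ⟨1, by simp⟩
      mul_mem' := fun {x y} ⟨a, ha⟩ ⟨b, hb⟩ => ⟨b * a, by
        rw [coe_mul, map_mul, mul_assoc, hb, mul_smul_comm, ha, smul_smul]⟩
      inv_mem' := fun {x} ⟨a, ha⟩ => ⟨a⁻¹, by
        rw [eq_inv_smul_iff₀ (c0 _ _ ha), ← mul_smul_comm, ← ha, ← mul_assoc, coe_inv, iv, one_mul]⟩ }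
  haveI : N.Normal := ⟨fun x ⟨a, ha⟩ g => ⟨a, by
    rw [coe_mul, coe_mul, map_mul, map_mul, mul_assoc, hc _ g⁻¹.2, mul_assoc, ← mul_assoc (ρ x), ha,
      smul_mul_assoc, mul_smul_comm, ← mul_assoc, hc _ g.2, mul_assoc, ← map_mul, coe_inv, mul_inv_cancel,
      map_one, mul_one]⟩⟩
  obtain ⟨x, hx, hx'⟩ := hx
  haveI : Nontrivial (T ⧸ N) := ⟨(⟨x, hx⟩ : T), 1, fun h =>
    let ⟨c, h⟩ := (QuotientGroup.eq_one_iff _).1 h; hx' c h⟩
  haveI := Fact.mk Nat.prime_two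
  haveI := (hT.to_quotient N).center_nontrivial
  obtain ⟨n, n0, hn⟩ := ((hT.to_quotient N).to_subgroup (center _)).nontrivial_iff_card.1 inferInstance
  obtain ⟨⟨y, hy⟩, o⟩ := exists_prime_orderOf_dvd_card' (G := center (T ⧸ N)) 2 (hn ▸ dvd_pow_self 2 n0.ne')
  obtain ⟨y, rfl⟩ := QuotientGroup.mk_surjective y
  replace o : orderOf (y : T ⧸ N) = 2 := (orderOf_coe _).trans o
  obtain ⟨d, hd⟩ : y * y ∈ N := (QuotientGroup.eq_one_iff _).1 (by
    rw [QuotientGroup.mk_mul, ← sq, ← o]; exact pow_orderOf_eq_one _)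
  have y1 : ∀ c : k, ρ y * e ≠ c • e := fun c h => by
    rw [show ((y : T ⧸ N)) = 1 from (QuotientGroup.eq_one_iff _).2 ⟨c, h⟩] at o
    simp at o
  obtain ⟨c, rfl⟩ := IsAlgClosed.exists_eq_mul_self d
  have c1 : c ≠ 0 := fun h => c0 _ _ hd (by simp [h])
  have ye := hc _ y.2
  rw [coe_mul, map_mul] at hd
  have zz : c⁻¹ • (ρ y * e) * c⁻¹ • (ρ y * e) = e := by
    rw [smul_mul_smul_comm, mul_assoc, ← mul_assoc e, ← ye, mul_assoc, he, ← mul_assoc, hd, smul_smul]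
    rw [show c⁻¹ * c⁻¹ * (c * c) = 1 by field_simp, one_smul]
  refine ⟨c⁻¹ • (ρ y * e), zz, by rw [smul_mul_assoc, mul_assoc, he],
    by rw [mul_smul_comm, ← mul_assoc, ← ye, mul_assoc, he], fun h => y1 c ((inv_smul_eq_iff₀ c1).1 h),
    fun h => y1 (-c) (by rw [(inv_smul_eq_iff₀ c1).1 h]; simp), fun x hx => ?_⟩
  obtain ⟨l, hl⟩ : (y * ⟨x, hx⟩)⁻¹ * (⟨x, hx⟩ * y) ∈ N := QuotientGroup.eq.1 (by
    rw [QuotientGroup.mk_mul, QuotientGroup.mk_mul]; exact (mem_center_iff.1 hy _).symm)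
  have xe := hc x hx
  have e1 : ρ x * (ρ y * e) = l • (ρ y * e * ρ x) := by
    have := congrArg (ρ (y * x) * ·) hl
    simp only [← mul_assoc, ← map_mul, coe_mul, coe_inv, mul_inv_cancel, one_mul] at this
    rw [← mul_assoc, ← map_mul, this, mul_smul_comm, map_mul, mul_assoc, mul_assoc, xe]
  generalize ρ y * e = Y at zz e1
  have e2 : ρ x * (c⁻¹ • Y) = l • (c⁻¹ • Y * ρ x) := by
    rw [mul_smul_comm, e1, smul_mul_assoc, smul_comm]
  generalize c⁻¹ • Y = z at zz e2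
  have e3 : ρ x * e = (l * l) • (ρ x * e) := by
    conv_lhs => rw [← zz, ← mul_assoc, e2, smul_mul_assoc, mul_assoc, e2, mul_smul_comm, smul_smul,
      ← mul_assoc, zz, ← xe]
  have e4 : l * l = 1 := by
    by_contra h
    refine c0 x 0 ?_ rfl
    rw [zero_smul, ← sub_eq_zero, sub_zero, ← smul_eq_zero_iff_right (sub_ne_zero.2 h), sub_smul, ← e3]
    simp
  rcases mul_self_eq_one_iff.1 e4 with rfl | rfl
  · exact Or.inl (by simpa using e2)
  · exact Or.inr (by simpa using e2)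

end Cfsg.Agent.H8.L4
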