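import Cfsg.Agent.H8.L4.Hm3a

/-! No homologies in case (F). -/

set_option autoImplicit false
set_option linter.unusedSimpArgs false
set_option linter.unusedSectionVars false
set_option linter.unusedVariables false

namespace Cfsg.Agent.H6.L4

open Module LinearMap Cfsg.Agent.H8.M3 Cfsg.Agent.H8.L4
open Cfsg.Agent.H6.S4 (nc T NoTv finSub finOrd co co_inj co_apply M2 Ex ch2 um ui iu Act act_of exists_phi
  dickM unip_pow co0 co1)
open Matrix (mulVec)
open scoped Matrix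

universe u

variable {k V : Type*} [Field k] [AddCommGroup V] [Module k V] [FiniteDimensional k V]
  {G : Type u} [Group G] {P : Subgroup (End k V)ˣ} {π : P →* G} {p : ℕ}
  {g g' x x' y : (End k V)ˣ} {c μ : k} {v v' : V} {φ φ' : Dual k V}

theorem St.tv' (h : St P π) (hx : x ∈ P) (hy : y ∈ P) {w : V} (e : ∀ u, ∃ d : k, x.1 u = y.1 u + d • w) :
    x = y := mul_inv_eq_one.1 (h.tv _ (P.mul_mem hx (P.inv_mem hy)) w fun u =>
  let ⟨d, hd⟩ := e (y⁻¹.1 u); ⟨d, by rw [um, hd, iu, add_sub_cancel_left]⟩)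

theorem Ho.eq_of (H : St P π) (h : Ho P c μ x v φ) (h' : Ho P c μ x' v' φ') (c0 : c ≠ 0) (m0 : μ ≠ 0)
    (m1 : μ ^ 2 ≠ 1) (a : φ v' * φ' v = 1) : x = x' := by
  have h1 := h.one
  have h2 := h'.one
  have α0 : φ v' ≠ 0 := left_ne_zero_of_mul_eq_one a
  have hβ : φ' v = (φ v')⁻¹ := eq_inv_of_mul_eq_one_right a
  have i := h.inv c0 m0
  have i' := h'.inv c0 m0
  have e := H.tv' (x := x * x'⁻¹ * (x⁻¹ * x')) (y := x⁻¹ * x' * (x * x'⁻¹))
    (P.mul_mem (P.mul_mem h.mem i'.mem) (P.mul_mem i.mem h'.mem))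
    (P.mul_mem (P.mul_mem i.mem h'.mem) (P.mul_mem h.mem i'.mem)) (w := v' - φ v' • v) fun u =>
    ⟨(μ - μ⁻¹) * (μ⁻¹ + μ - 2) * (φ' u - φ' v * φ u), by
      simp only [um, h.ap, h'.ap, i.ap, i'.ap, map_smul, map_add, h1, h2, hβ, smul_eq_mul]
      match_scalars <;> field_simp <;> ring⟩
  have k0 : (μ - μ⁻¹) * (μ⁻¹ + μ - 2) ≠ 0 := by
    have : μ - 1 ≠ 0 := fun q => m1 (by rw [sub_eq_zero.1 q, one_pow])
    rw [show (μ - μ⁻¹) * (μ⁻¹ + μ - 2) = (μ ^ 2 - 1) * (μ - 1) ^ 2 / μ ^ 2 by field_simp; ring]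
    exact div_ne_zero (mul_ne_zero (sub_ne_zero.2 m1) (pow_ne_zero _ this)) (pow_ne_zero _ m0)
  have e' : ∀ u, ((μ - μ⁻¹) * (μ⁻¹ + μ - 2) * (φ' u - φ' v * φ u)) • (v' - φ v' • v) = 0 := fun u => by
    have := congrArg (fun g : (End k V)ˣ => g.1 u) e
    simp only [um, h.ap, h'.ap, i.ap, i'.ap, map_smul, map_add, h1, h2, hβ, smul_eq_mul] at this
    rw [← sub_eq_zero.2 this, hβ]
    match_scalars <;> field_simp <;> ring
  by_cases q : v' - φ v' • v = 0
  · refine H.tv' h.mem h'.mem (w := v) fun u => ⟨c * (μ - 1) * (φ u - φ' u * φ v'), ?_⟩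
    rw [h.ap, h'.ap]
    nth_rewrite 1 [sub_eq_zero.1 q]
    module
  · refine H.tv' h.mem h'.mem (w := v' - φ v' • v) fun u => ⟨-(c * (μ - 1) * φ' u), ?_⟩
    have := sub_eq_zero.1 ((mul_eq_zero.1 ((smul_eq_zero.1 (e' u)).resolve_right q)).resolve_left k0)
    rw [h.ap, h'.ap, this, hβ]
    match_scalars <;> field_simp <;> ring

theorem Ho.zero (H : St P π) (h : Ho P c μ x v φ) (h' : Ho P c μ x' v' φ') (c0 : c ≠ 0) (m1 : μ ≠ 1)
    (a : φ v' = 0) : φ' v = 0 := by
  have h1 := h.one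
  have h2 := h'.one
  have e := H.tv' (P.mul_mem h'.mem h.mem) (P.mul_mem h.mem h'.mem) (w := v') fun u =>
    ⟨c ^ 2 * (μ - 1) ^ 2 * φ' v * φ u, by
      simp only [um, h.ap, h'.ap, map_smul, map_add, h1, h2, a, smul_eq_mul]; module⟩
  have := congrArg (fun g : (End k V)ˣ => φ' (g.1 v)) e
  simp only [um, h.ap, h'.ap, map_smul, map_add, h1, h2, a, smul_eq_mul] at this
  exact (mul_eq_zero.1 (show c ^ 2 * (μ - 1) ^ 2 * φ' v = 0 by linear_combination this)).resolve_left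
    (mul_ne_zero (pow_ne_zero _ c0) (pow_ne_zero _ (sub_ne_zero.2 m1)))

theorem gold5 {w t : k} (two : (2 : k) ≠ 0) (w1 : w ^ 2 + w - 1 = 0) (w4 : w - 2 ≠ 0)
    (q : t ^ 4 - 3 * t ^ 2 + 1 = 0) (z : ((w + 2) * (t - 1) ^ 2) ^ 2 - 3 * ((w + 2) * (t - 1) ^ 2) + 1 = 0)
    (z3 : ((w + 2 - 1) * t - (w + 2)) ^ 4 - 3 * ((w + 2 - 1) * t - (w + 2)) ^ 2 + 1 = 0) : t = w := by
  have q2 : (t - w) * ((t + w) * ((t - 1 - w) * (t + 1 + w))) = 0 := by
    linear_combination q + (-2 * t ^ 2 + w ^ 2 + w + 1) * w1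
  simp only [mul_eq_zero] at q2
  rcases q2 with e | e | e | e
  · linear_combination e
  · obtain rfl : t = -w := by linear_combination e
    have : (2 : k) ^ 2 * (5 + 3 * w) = 0 := by grind
    have := (mul_eq_zero.1 this).resolve_left (pow_ne_zero _ two)
    exact (one_ne_zero' k (by grind)).elim
  · obtain rfl : t = 1 + w := by linear_combination e
    exact (one_ne_zero' k (by grind)).elim
  · obtain rfl : t = -1 - w := by linear_combination e
    have e2 : 15 * (13 + 8 * w) = 0 := by grind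
    have e3 : 5 * (97 + 60 * w) = 0 := by grind
    have h15 : (15 : k) = 0 := by linear_combination -(8 * w - 5) * e2 + 960 * w1
    have h5 : (5 : k) = 0 := by linear_combination e3 - (32 + 20 * w) * h15
    exact (w4 (pow_eq_zero_iff two_ne_zero |>.1 (by linear_combination w1 + (1 - w) * h5))).elim

set_option maxHeartbeats 1600000 in
theorem Ho.pair [IsAlgClosed k] [Fact p.Prime] [CharP k p] (H : St P π) (ns : NoS P) (h : Ho P c μ x v φ)
    (h' : Ho P c μ x' v' φ') {r : ℕ} (hr : r.Prime) (r2 : r ≠ 2) (o : orderOf μ = r) :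
    x = x' ∨ (μ ^ 2 + μ + 1 = 0 ∧ 3 * (φ v' * φ' v) = 1) := by
  have h1 := h.one
  have h2 := h'.one
  haveI := H.fin
  obtain ⟨n, n0, cn, μn⟩ := h.rt H
  have c0 : c ≠ 0 := by rintro rfl; simp [n0.ne'] at cn
  have m0 : μ ≠ 0 := by rintro rfl; simp [n0.ne'] at μn
  have dv : ∀ {m}, μ ^ m = 1 → r ∣ m := fun e => o ▸ orderOf_dvd_of_pow_eq_one e
  have p2 : ∀ j m, μ ^ (2 ^ j * m) = 1 → r ∣ m := fun j m e =>
    (Nat.Coprime.pow_right j ((Nat.coprime_primes hr Nat.prime_two).2 r2)).dvd_of_dvd_mul_left (dv e)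
  have n1 : ∀ j, μ ^ 2 ^ j ≠ 1 := fun j e => hr.one_lt.ne' (Nat.dvd_one.1 (p2 j 1 (by simpa using e)))
  have m1 : μ ≠ 1 := by simpa using n1 0
  refine or_iff_not_imp_left.2 fun ne => ?_
  have a1 : φ v' * φ' v ≠ 1 := fun a => ne (h.eq_of H h' c0 m0 (n1 1) a)
  have a0 : φ v' ≠ 0 ∧ φ' v ≠ 0 := by
    have z : φ v' = 0 → φ' v = 0 → False := fun a b => n1 1 (by
      have := H.nsS' ns (P.mul_mem h.mem h'.mem) h1 h2 a1 (σ := c ^ 2 * μ) (γ := c ^ 2)
        (by simp only [um, h.ap, h'.ap, map_smul, map_add, h1, h2, a, b, smul_eq_mul]; module)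
        (by simp only [um, h.ap, h'.ap, map_smul, map_add, h1, h2, a, b, smul_eq_mul]; module)
        fun u a b => by simp only [um, h.ap, h'.ap, map_smul, map_add, h1, h2, a, b, smul_eq_mul]; module
      exact mul_left_cancel₀ (pow_ne_zero 4 c0) (by linear_combination this))
    exact ⟨fun a => z a (h.zero H h' c0 m1 a), fun b => z (h'.zero H h c0 m1 b) b⟩
  obtain ⟨s, hs⟩ := IsAlgClosed.exists_eq_mul_self μ
  have s0 : s ≠ 0 := by rintro rfl; simp [hs] at m0
  let l : kˣ := (Units.mk0 (c * s) (mul_ne_zero c0 s0))⁻¹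
  haveI : Finite (Subgroup.zpowers l) := finite_zpowers.2 (isOfFinOrder_iff_pow_eq_one.2 ⟨2 * n, by omega, by
    rw [inv_pow, inv_eq_one]; apply Units.ext
    simp [mul_pow, pow_mul, sq, ← hs, μn, cn, ← mul_pow s s]⟩)
  haveI : Finite (P.prod (Subgroup.zpowers l)) := Finite.of_equiv _ (Subgroup.prodEquiv _ _).symm.toEquiv
  let D := finSub (P.prod (Subgroup.zpowers l)) (fun d => Act v v' (d.2.1 • d.1.1) ∧
    ∃ γ : k, ∀ u, φ u = 0 → φ' u = 0 → d.1.1 u = γ • u) ⟨by simpa using Act.one v v', 1, by simp⟩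
    fun a _ b _ ⟨a1, γ, a2⟩ ⟨b1, δ, b2⟩ => ⟨by simpa [smul_smul, mul_comm] using a1.mul b1, δ * γ, fun u e e' => by
      rw [Prod.fst_mul, um, b2 u e e', map_smul, a2 u e e', smul_smul]⟩
  haveI : Finite D := Finite.of_injective _ (Subgroup.inclusion_injective (show D ≤ _ from fun d hd => hd.1))
  have v0 : v ≠ 0 := by rintro rfl; simp at h1
  have vv : ∀ t : k, v' ≠ t • v := fun c hc => a1 (by rw [hc] at h2 ⊢; simpa [h1] using h2)
  obtain ⟨Φ, hd, hΦ⟩ := exists_phi (D := D) ⟨⟨fun d => d.1.2.1 • d.1.1.1, by simp⟩, fun a b => by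
    simp [smul_smul, mul_comm]⟩ v0 vv fun d => d.2.2.1
  simp only [MonoidHom.coe_mk, OneHom.coe_mk] at hΦ
  have lv : l.1 = (c * s)⁻¹ := by simp [l]
  let A : D := ⟨(x, l), ⟨h.mem, Subgroup.mem_zpowers l⟩, act_of (a := s) (b := 0) (c := s⁻¹ * (μ - 1) * φ v')
    (d := s⁻¹) (by simp only [lv, LinearMap.smul_apply, h.ap, h1, hs]; match_scalars <;> field_simp <;> ring)
    (by simp only [lv, LinearMap.smul_apply, h.ap, h1, hs]; match_scalars <;> field_simp)
    (by field_simp; ring), c, fun u a b => by simp [h.ap, a]⟩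
  let B : D := ⟨(x', l), ⟨h'.mem, Subgroup.mem_zpowers l⟩, act_of (a := s⁻¹) (b := s⁻¹ * (μ - 1) * φ' v) (c := 0)
    (d := s) (by simp only [lv, LinearMap.smul_apply, h'.ap, h2, hs]; match_scalars <;> field_simp)
    (by simp only [lv, LinearMap.smul_apply, h'.ap, h2, hs]; match_scalars <;> field_simp <;> ring)
    (by field_simp; ring), c, fun u a b => by simp [h'.ap, b]⟩
  have ext : ∀ (d : D) (M : M2 k), (∀ t, (d.1.2.1 • d.1.1.1) (co v v' t) = co v v' (M *ᵥ t)) → (Φ d).1 = M :=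
    fun d M e => Matrix.ext_of_mulVec_single fun i => co_inj v0 vv (by rw [← hΦ, e])
  have hA : (Φ A).1 = !![s, s⁻¹ * (μ - 1) * φ v'; 0, s⁻¹] := ext _ _ fun t => by
    simp [A, lv, co_apply, h.ap, h1, hs, Matrix.vecHead, Matrix.vecTail]; match_scalars <;> field_simp <;> ring
  have hB : (Φ B).1 = !![s⁻¹, 0; s⁻¹ * (μ - 1) * φ' v, s] := ext _ _ fun t => by
    simp [B, lv, co_apply, h'.ap, h2, hs, Matrix.vecHead, Matrix.vecTail]; match_scalars <;> field_simp <;> ring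
  have key : ∀ (d : D) (γ : k), (∀ u, φ u = 0 → φ' u = 0 → d.1.1.1 u = γ • u) → ∀ N, (Φ d).1 ^ N = 1 →
      (d.1.2.1 * γ) ^ (2 * N) = 1 := fun d γ e N hN => by
    have q : ∀ t, (d.1.1 ^ N).1 (co v v' t) = (d.1.2.1 ^ N)⁻¹ • co v v' t := fun t => by
      have := hΦ (d ^ N) t
      rw [map_pow, Units.val_pow_eq_pow_val, hN, Matrix.one_mulVec] at this
      rw [eq_inv_smul_iff₀ (pow_ne_zero _ (Units.ne_zero _))]
      simpa using this
    have := H.nsS' ns (P.pow_mem d.2.1.1 N) h1 h2 a1 (γ := γ ^ N) (by simpa [co0] using q ![1, 0])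
      (by simpa [co1] using q ![0, 1]) fun u a b => by
        clear hN q
        induction N with
        | zero => simp
        | succ N ih => rw [pow_succ', um, ih, map_smul, e u a b, smul_smul, pow_succ]
    rw [mul_pow, two_mul, pow_add, pow_add, ← this]
    field_simp
  have red : ∀ w : Fin 2 → k, w ≠ 0 → (∃ t : k, (Φ A).1 *ᵥ w = t • w) → (∃ t : k, (Φ B).1 *ᵥ w = t • w) →
      False := fun w w0 ⟨t, ht⟩ ⟨t', ht'⟩ => by
    rw [hA] at ht
    rw [hB] at ht'
    have e0 := congrFun ht 0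
    have e1 := congrFun ht 1
    have e2 := congrFun ht' 0
    have e3 := congrFun ht' 1
    have w1 : w 0 ≠ 0 ∨ w 1 ≠ 0 := by
      by_contra! q; exact w0 (funext fun i => by fin_cases i; exacts [q.1, q.2])
    simp only [Matrix.mulVec, dotProduct, Fin.sum_univ_two, Matrix.of_apply, Matrix.cons_val', Matrix.cons_val_zero,
      Matrix.cons_val_one, Matrix.cons_val_fin_one, Pi.smul_apply, smul_eq_mul] at e0 e1 e2 e3
    have := sub_ne_zero.2 m1
    obtain ⟨a2, a3⟩ := a0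
    subst hs
    generalize φ v' = α at *
    generalize φ' v = β at *
    clear * - e0 e1 e2 e3 w1 this a1 a2 a3 s0
    grind
  have sw : ∀ (M : M2 k) (w w' : Fin 2 → k), w ≠ 0 → (∀ t : k, w' ≠ t • w) → M.det = 1 → M.trace = s + s⁻¹ →
      (∃ t : k, M *ᵥ w = t • w') → (∃ t : k, M *ᵥ w' = t • w) → False := fun M w w' w0 ww d tr ⟨a, ha⟩ ⟨b, hb⟩ => by
    have := congrArg (· *ᵥ w) (ch2 d)
    simp only [← Matrix.mulVec_mulVec, ha, Matrix.mulVec_smul, hb, Matrix.sub_mulVec, Matrix.smul_mulVec,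
      Matrix.one_mulVec, tr] at this
    by_cases q : (s + s⁻¹) * a = 0
    · rcases mul_eq_zero.1 q with q | rfl
      · exact n1 1 (by rw [hs]; field_simp at q; grind)
      · exact w0 (by simpa using this)
    · exact ww (((s + s⁻¹) * a)⁻¹ * (a * b + 1)) (by
        rw [mul_smul, eq_inv_smul_iff₀ q]; linear_combination (norm := module) -this)
  rcases dickM p H.two Φ hd with ⟨w, w0, e⟩ | ⟨w, w', w0, ww, e⟩ | ⟨-, -, κ, e, -⟩ | ⟨k0, R, N, N', W⟩
  · exact (red w w0 (e A) (e B)).elim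
  · exact (red w w0 ((e A).resolve_right fun q => sw _ w w' w0 ww (hd A) (by simp [hA]) q.1 q.2).1
      ((e B).resolve_right fun q => sw _ w w' w0 ww (hd B) (by simp [hB, add_comm]) q.1 q.2).1).elim
  · have k1 : ∀ N, (Φ (A * B)).1 ^ N = 1 → μ ^ (2 ^ 1 * N) = 1 := fun N e => by
      have := key (A * B) (c * c) (fun u a b => by simp [A, B, h.ap, h'.ap, a, b, smul_smul]) N e
      rw [show (A * B).1.2.1 * (c * c) = μ⁻¹ by simp [A, B, lv, hs]; field_simp, inv_pow, inv_eq_one] at this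
      exact this
    have k2 : ∀ N, (Φ (A * (A * B))).1 ^ N = 1 → μ ^ (3 * N) = 1 := fun N e => by
      have := key (A * (A * B)) (c * c * c) (fun u a b => by simp [A, B, h.ap, h'.ap, a, b, smul_smul, mul_assoc]) N e
      rw [show (A * (A * B)).1.2.1 * (c * c * c) = (s ^ 3)⁻¹ by simp [A, B, lv, hs]; field_simp, inv_pow,
        inv_eq_one, ← pow_mul, mul_left_comm, pow_mul, sq, ← hs] at this
      exact this
    have k3 : ∀ N, (Φ (A * (A * (A * B)))).1 ^ N = 1 → μ ^ (4 * N) = 1 := fun N e => by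
      have := key (A * (A * (A * B))) (c * c * c * c)
        (fun u a b => by simp [A, B, h.ap, h'.ap, a, b, smul_smul, mul_assoc]) N e
      rw [show (A * (A * (A * B))).1.2.1 * (c * c * c * c) = (μ ^ 2)⁻¹ by simp [A, B, lv, hs]; field_simp, inv_pow,
        inv_eq_one, ← pow_mul, ← mul_assoc] at this
      exact this
    have t3 : (Φ (A * (A * (A * B)))).1.trace = ((s + s⁻¹) ^ 2 - 1) * (Φ (A * B)).1.trace - (s + s⁻¹) ^ 2 := by
      simp [hA, hB, hs]; field_simp; ring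
    have t1 : (Φ (A * B)).1.trace = 2 + μ⁻¹ * (μ - 1) ^ 2 * (φ v' * φ' v) := by
      simp [hA, hB, hs]; field_simp; ring
    have t2 : (Φ (A * (A * B))).1.trace = (s + s⁻¹) * ((Φ (A * B)).1.trace - 1) := by
      simp [hA, hB, hs]; field_simp; ring
    have two := H.two
    have m2 := sub_ne_zero.2 m1
    rcases ex_pow (hd _) (e (A * B)) with q | ⟨q, q'⟩ | ⟨q, q'⟩
    · exact (n1 4 (k1 _ q)).elim
    · have : r = 3 := (Nat.prime_dvd_prime_iff_eq hr Nat.prime_three).1 (p2 2 3 (k1 _ q'))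
      have m3 : μ ^ 2 + μ + 1 = 0 := mul_left_cancel₀ m2 (by
        linear_combination (this ▸ o ▸ pow_orderOf_eq_one μ : μ ^ 3 = 1))
      refine ⟨m3, ?_⟩
      rw [t1, show μ⁻¹ * (μ - 1) ^ 2 = -3 by field_simp; linear_combination m3] at q
      have t3 : (3 : k) ≠ 0 := fun e => m2 (pow_eq_zero_iff two_ne_zero |>.1 (by linear_combination m3 - μ * e))
      clear * - q t3 a1
      grind
    have r5 : r = 5 := (Nat.prime_dvd_prime_iff_eq hr Nat.prime_five).1 (p2 2 5 (k1 _ q'))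
    subst r5
    rcases ex_pow (hd _) (e (A * (A * B))) with z | ⟨-, z⟩ | ⟨z, -⟩
    · exact absurd (dv (k2 _ z)) (by decide)
    · exact absurd (dv (k2 _ z)) (by decide)
    rcases ex_pow (hd _) (e (A * (A * (A * B)))) with z3 | ⟨-, z3⟩ | ⟨z3, -⟩
    · exact absurd (dv (k3 _ z3)) (by decide)
    · exact absurd (dv (k3 _ z3)) (by decide)
    have m5 : μ ^ 4 + μ ^ 3 + μ ^ 2 + μ + 1 = 0 := mul_left_cancel₀ m2 (by
      linear_combination (o ▸ pow_orderOf_eq_one μ : μ ^ 5 = 1))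
    rw [t2] at z
    obtain ⟨w, hw⟩ : ∃ w, w = μ + μ⁻¹ := ⟨_, rfl⟩
    have w1 : w ^ 2 + w - 1 = 0 := by rw [hw]; field_simp; linear_combination m5
    have w2 : (s + s⁻¹) ^ 2 = w + 2 := by rw [hw, hs]; field_simp; ring
    have w3 : μ⁻¹ * (μ - 1) ^ 2 = w - 2 := by rw [hw]; field_simp; ring
    have w4 : w - 2 ≠ 0 := w3 ▸ mul_ne_zero (inv_ne_zero m0) (pow_ne_zero _ m2)
    rw [w3] at t1
    rw [t3, w2] at z3
    have tw := gold5 two w1 w4 q (by rw [← w2]; linear_combination z) z3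
    exact (a1 (mul_left_cancel₀ w4 (by linear_combination tw - t1))).elim
  have e0 := congrFun (congrFun W.sq 0) 0
  have e1 := congrFun (congrFun W.sq 0) 1
  have e2 := congrFun (congrFun W.sq 1) 0
  have e3 := congrFun (congrFun W.sq 1) 1
  simp only [Matrix.mul_apply, Fin.sum_univ_two, Matrix.zero_apply] at e0 e1 e2 e3
  have dN : N 0 0 * N 1 1 - N 0 1 * N 1 0 = 0 := pow_eq_zero_iff two_ne_zero |>.1 (by
    linear_combination e0 * (N 1 0 * N 0 1 + N 1 1 * N 1 1) - (N 1 0 * N 0 0 + N 1 1 * N 1 0) * e1)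
  have tN : N 0 0 + N 1 1 = 0 := pow_eq_zero_iff two_ne_zero |>.1 (by linear_combination e0 + e3 + 2 * dN)
  obtain ⟨d, hd'⟩ := W.ex (1 + N) (R.add_mem R.one_mem W.hN) (by
    simp [Matrix.det_fin_two]; linear_combination dN + tN)
  have pw : ∀ m : ℕ, (Φ d).1 ^ (2 * m) = 1 + ((2 * m : ℕ) : k) • N := fun m => by
    have : ∀ m : ℕ, (1 + N) ^ m = 1 + (m : k) • N := fun m => by
      induction m with
      | zero => simp
      | succ m ih => rw [pow_succ, ih]; simp [add_mul, mul_add, W.sq, add_smul, add_assoc]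
    rcases hd' with e | e <;> rw [e]
    · exact this _
    · rw [Even.neg_pow (even_two_mul m), this]
  obtain ⟨γ, hγ⟩ := d.2.2.2
  have fr : ∀ t : k, t ^ p = 1 → t = 1 := fun t e => frobenius_inj k p (by simpa [_root_.frobenius_def] using e)
  have q : (d.1.2.1 * γ) ^ 4 = 1 := fr _ ((pow_mul _ 4 p).symm.trans (by
    rw [← key d γ hγ _ (by rw [pw p]; simp), ← mul_assoc]; rfl))
  obtain ⟨w, hw⟩ : ∃ w : Fin 2 → k, ∀ t, ∃ a : k, N *ᵥ t = a • w := by
    by_cases a : N 0 0 = 0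
    · by_cases b : N 1 0 = 0
      · exact ⟨![N 0 1, N 1 1], fun t => ⟨t 1, by
          ext i; fin_cases i <;> simp [Matrix.mulVec, dotProduct, a, b, mul_comm (t 1)]⟩⟩
      · exact ⟨![N 0 0, N 1 0], fun t => ⟨t 0 + t 1 * N 1 1 / N 1 0, by
          ext i; fin_cases i <;> simp [Matrix.mulVec, dotProduct] <;> field_simp <;> grind⟩⟩
    · exact ⟨![N 0 0, N 1 0], fun t => ⟨t 0 + t 1 * N 0 1 / N 0 0, by
        ext i; fin_cases i <;> simp [Matrix.mulVec, dotProduct] <;> field_simp <;> grind⟩⟩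
  have ap : ∀ (m : ℕ) (u : V), ∃ t, (d.1.1 ^ (4 * m)).1 u = γ ^ (4 * m) • (u + ((4 * m : ℕ) : k) • co v v' (N *ᵥ t)) ∧
      ∀ t', u = co v v' t' → t = t' := fun m u => by
    have a2 := sub_ne_zero.2 a1.symm
    obtain ⟨t, ht⟩ : ∃ t : Fin 2 → k, t = (1 - φ v' * φ' v)⁻¹ • ![φ u - φ v' * φ' u, φ' u - φ' v * φ u] := ⟨_, rfl⟩
    refine ⟨t, ?_, by
      rintro t' rfl
      rw [ht]; ext i; fin_cases i <;> simp [co_apply, h1, h2] <;> field_simp <;> ring⟩
    have b1 : (d.1.1 ^ (4 * m)).1 (u - co v v' t) = γ ^ (4 * m) • (u - co v v' t) := by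
      have a : φ (u - co v v' t) = 0 := by simp [ht, co_apply, h1]; field_simp; ring
      have b : φ' (u - co v v' t) = 0 := by simp [ht, co_apply, h2]; field_simp; ring
      induction 4 * m with
      | zero => simp
      | succ N ih => rw [pow_succ', um, ih, map_smul, hγ _ a b, smul_smul, pow_succ]
    have b2 := hΦ (d ^ (2 * (2 * m))) t
    rw [map_pow, Units.val_pow_eq_pow_val, pw, ← mul_assoc, Matrix.add_mulVec, Matrix.smul_mulVec,
      Matrix.one_mulVec, map_add, map_smul] at b2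
    replace b2 : (d.1.2.1 ^ (4 * m)) • (d.1.1 ^ (4 * m)).1 (co v v' t) =
        co v v' t + ((4 * m : ℕ) : k) • co v v' (N *ᵥ t) := by
      simpa [-Matrix.mulVec_cons, -Matrix.cons_mulVec] using b2
    have b3 : γ ^ (4 * m) * d.1.2.1 ^ (4 * m) = 1 := by rw [← mul_pow, mul_comm γ, pow_mul, q, one_pow]
    rw [map_sub, sub_eq_iff_eq_add] at b1
    rw [b1, ← one_smul k ((d.1.1 ^ (4 * m)).1 (co v v' t)), ← b3, mul_smul, b2]
    module
  have g4 : (γ ^ 4) ^ 4 = 1 := fr _ (by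
    rw [← H.four (P.pow_mem d.2.1.1 (4 * p)) (c := γ ^ (4 * p)) (LinearMap.ext fun u => by
      obtain ⟨t, ht, -⟩ := ap p u
      simpa using ht)]
    ring)
  have γ0 : γ ^ 4 ≠ 0 := fun e => by simp [e] at g4
  have z := H.tv' (P.pow_mem d.2.1.1 (4 * 1)) (H.sc_mem γ0 g4) (w := co v v' w) fun u => by
    obtain ⟨t, ht, -⟩ := ap 1 u
    obtain ⟨a, ha⟩ := hw t
    exact ⟨γ ^ 4 * 4 * a, by rw [ht, ha, sc_val]; simp; module⟩
  have N0 : N = 0 := Matrix.ext_of_mulVec_single fun i => co_inj (k := k) v0 vv (by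
    obtain ⟨t, ht, e⟩ := ap 1 (co v v' (Pi.single i (1 : k)))
    rw [z, e _ rfl, sc_val] at ht
    have f4 : (4 : k) ≠ 0 := by have := mul_ne_zero H.two H.two; grind
    rw [Matrix.zero_mulVec, map_zero]
    simpa [γ0, f4] using ht)
  simpa [N0] using W.ac

theorem Ho.line (h : Ho P c μ x v φ) (h' : Ho P c μ x v' φ') (c0 : c ≠ 0) (m1 : μ ≠ 1) : v = φ' v • v' := by
  have := (h.ap v).symm.trans (h'.ap v)
  rw [h.one] at this
  exact smul_right_injective _ (mul_ne_zero c0 (sub_ne_zero.2 m1)) (by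
    simp only; linear_combination (norm := module) this)

theorem Ho.odd [IsAlgClosed k] [Fact p.Prime] [CharP k p] (H : St P π) (ns : NoS P) (h : Ho P c μ x v φ)
    {r : ℕ} (hr : r.Prime) (r2 : r ≠ 2) (o : orderOf μ = r) : False := by
  obtain ⟨n, n0, cn, μn⟩ := h.rt H
  have c0 : c ≠ 0 := by rintro rfl; simp [n0.ne'] at cn
  have m0 : μ ≠ 0 := by rintro rfl; simp [n0.ne'] at μn
  have m1 : μ ≠ 1 := by rintro rfl; simp [← o] at hr; exact Nat.not_prime_one hr
  have v0 : v ≠ 0 := by rintro rfl; simpa using h.one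
  have fin : ∀ v' : V, (∀ x w ψ, Ho P c μ x w ψ → w ∈ Submodule.span k {v, v'}) →
      (∃ x ψ, Ho P c μ x v' ψ) → False := fun v' a ⟨x', φ', h'⟩ => by
    rcases H.irr (Submodule.span k {v, v'}) (fun g hg u hu => by
      obtain ⟨s, t, rfl⟩ := Submodule.mem_span_pair.1 hu
      rw [map_add, map_smul, map_smul]
      exact add_mem (Submodule.smul_mem _ _ (a _ _ _ (h.conj hg))) (Submodule.smul_mem _ _ (a _ _ _ (h'.conj hg))))
      with e | e
    · exact v0 (Submodule.mem_bot k |>.1 (e ▸ Submodule.subset_span (by simp)))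
    · classical
      have := finrank_span_le_card (R := k) ({v, v'} : Set V)
      rw [e, finrank_top, H.dim, Set.toFinset_insert, Set.toFinset_singleton] at this
      have := Finset.card_le_two (a := v) (b := v')
      omega
  have ln : ∀ {y w ψ w' ψ'} {U : Submodule k V}, Ho P c μ y w ψ → Ho P c μ y w' ψ' → w' ∈ U → w ∈ U :=
    fun a b e => a.line b c0 m1 ▸ Submodule.smul_mem _ _ e
  have mv : ∀ {v'}, v ∈ Submodule.span k {v, v'} := Submodule.subset_span (by simp)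
  by_cases q : ∀ y w ψ, Ho P c μ y w ψ → y = x
  · exact fin v (fun y w ψ a => ln a (q y w ψ a ▸ h) mv) ⟨x, φ, h⟩
  push Not at q
  obtain ⟨x', v', φ', h', ne⟩ := q
  have mv' : v' ∈ Submodule.span k {v, v'} := Submodule.subset_span (by simp)
  obtain ⟨m3, a1⟩ := (h.pair H ns h' hr r2 o).resolve_left ne.symm
  have i := h.inv c0 m0
  refine fin v' (fun y w ψ a => ?_) ⟨x', φ', h'⟩
  rcases a.pair H ns h hr r2 o with rfl | ⟨-, a2⟩
  · exact ln a h mv
  rcases a.pair H ns h' hr r2 o with rfl | ⟨-, a3⟩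
  · exact ln a h' mv'
  rcases a.pair H ns (h'.conj h.mem) hr r2 o with rfl | ⟨-, a4⟩
  · exact ln a (h'.conj h.mem) (h.ap v' ▸ Submodule.smul_mem _ _ (add_mem mv' (Submodule.smul_mem _ _ mv)))
  rcases a.pair H ns (h'.conj i.mem) hr r2 o with rfl | ⟨-, a5⟩
  · exact ln a (h'.conj i.mem) (i.ap v' ▸ Submodule.smul_mem _ _ (add_mem mv' (Submodule.smul_mem _ _ mv)))
  exfalso
  simp only [comp_apply, inv_inv, h.ap, i.ap, map_smul, map_add, smul_eq_mul] at a4 a5
  have im : μ⁻¹ = μ ^ 2 := (eq_inv_of_mul_eq_one_left (by linear_combination (μ - 1) * m3)).symm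
  rw [im] at a4 a5
  have two := H.two
  have m2 := sub_ne_zero.2 m1
  generalize φ v' = α at *
  generalize φ' v = β at *
  generalize ψ v = γ at *
  generalize φ w = δ at *
  generalize ψ v' = ε at *
  generalize φ' w = ζ at *
  have b4 : 3 * ((ε + (μ - 1) * α * γ) * (ζ + (μ ^ 2 - 1) * δ * β)) = 1 := by
    refine Eq.trans ?_ a4; field_simp
  have b5 : 3 * ((ε + (μ ^ 2 - 1) * α * γ) * (ζ + (μ - 1) * δ * β)) = 1 := by
    refine Eq.trans ?_ a5; field_simp
  have t3 : (3 : k) ≠ 0 := fun e => by simp [e] at a1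
  have s1 : α * γ * ζ = ε * δ * β := mul_left_cancel₀ (mul_ne_zero t3 (mul_ne_zero m0 m2)) (by
    linear_combination b5 - b4)
  have s2 : 9 * (α * γ * ζ) = 1 := by clear * - s1 b4 a1 a2 a3 m3; grind
  refine two ?_
  clear * - s1 s2 a1 a2 a3
  grind

theorem hm [IsAlgClosed k] [Fact p.Prime] [CharP k p] (H : St P π) (ns : NoS P) : NoHm P := fun g hg c v e => by
  haveI := H.fin
  by_cases v0 : v = 0
  · exact ⟨c, LinearMap.ext fun u => let ⟨d, hd⟩ := e u; sub_eq_zero.1 (by simpa [v0] using hd)⟩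
  choose f hf using e
  let ψ : Dual k V :=
    { toFun := f
      map_add' := fun a b => smul_left_injective k v0 (by
        simp only [add_smul, ← hf, map_add]; module)
      map_smul' := fun a b => smul_left_injective k v0 (by
        simp only [smul_eq_mul, RingHom.id_apply, mul_smul, ← hf, map_smul]; module) }
  have ap : ∀ u, g.1 u = c • u + ψ u • v := fun u => sub_eq_iff_eq_add'.1 (hf u)
  have c0 : c ≠ 0 := by
    rintro rfl
    have := finrank_span_singleton (K := k) v0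
    rw [show Submodule.span k {v} = ⊤ from eq_top_iff.2 fun u _ => by
      rw [← iu g u, ap, zero_smul, zero_add]
      exact Submodule.smul_mem _ _ (Submodule.mem_span_singleton_self v), finrank_top, H.dim] at this
    omega
  by_cases q : ψ v = 0
  · have pw : ∀ (n : ℕ) u, (g ^ n).1 u = c ^ n • (u + (n * c⁻¹ * ψ u) • v) := fun n u => by
      induction n with
      | zero => simp
      | succ n ih => rw [pow_succ', um, ih, ap]; simp [q]; match_scalars <;> field_simp <;> ring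
    have c4 : c ^ 4 = 1 := frobenius_inj k p (by
      rw [_root_.frobenius_def, map_one, ← pow_mul, mul_comm, pow_mul]
      exact H.four (P.pow_mem hg p) (LinearMap.ext fun u => by simpa using pw p u))
    exact ⟨c, by rw [H.tv' hg (H.sc_mem c0 c4) (w := v) fun u => ⟨ψ u, ap u⟩, sc_val]⟩
  have h : Ho P c (1 + ψ v / c) g v ((ψ v)⁻¹ • ψ) :=
    ⟨hg, by simp [q], fun u => by rw [ap]; simp; match_scalars <;> field_simp⟩
  have m1 : 1 + ψ v / c ≠ 1 := by simp [q, c0]
  generalize 1 + ψ v / c = μ at h m1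
  obtain ⟨n, n0, -, μn⟩ := h.rt H
  have o0 : orderOf μ ≠ 0 := (isOfFinOrder_iff_pow_eq_one.2 ⟨n, n0, μn⟩).orderOf_pos.ne'
  obtain ⟨r, hr, d⟩ := Nat.exists_prime_and_dvd (mt orderOf_eq_one_iff.1 m1)
  have o := orderOf_pow_orderOf_div o0 d
  replace h := h.pow (orderOf μ / r)
  refine (h.odd H ns hr (fun r2 => ?_) o).elim
  generalize μ ^ (orderOf μ / r) = ν at h o
  generalize c ^ (orderOf μ / r) = c at h
  generalize g ^ (orderOf μ / r) = x at h
  generalize (ψ v)⁻¹ • ψ = φ at h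
  subst r2
  obtain rfl : ν = -1 := (mul_self_eq_one_iff.1 (by rw [← sq, ← o, pow_orderOf_eq_one])).resolve_left (by
    rintro rfl; simp at o)
  have h1 := h.one
  have xe : x.1 = c • ((-1 : k) • φ.smulRight v + (1 - φ.smulRight v)) := LinearMap.ext fun u => by
    rw [h.ap]; simp; module
  have he : φ.smulRight v * φ.smulRight v = φ.smulRight v := LinearMap.ext fun u => by simp [h1]
  have re : rk (φ.smulRight v) = 1 := by
    rw [rk, show range (φ.smulRight v) = Submodule.span k {v} from le_antisymm (by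
      rintro _ ⟨u, rfl⟩; exact Submodule.smul_mem _ _ (Submodule.mem_span_singleton_self v))
      ((Submodule.span_singleton_le_iff_mem _ _).2 ⟨v, by simp [h1]⟩), finrank_span_singleton v0]
  have c4 := H.det x h.mem
  rw [xe, LinearMap.det_smul, det_idem he, re, H.dim] at c4
  obtain ⟨y, hy, z, hz, ⟨t, ht⟩, e⟩ := H.core h.mem
  have t4 := H.four hz ht
  have t0 := H.ne0 ht
  have ye : y.1 = t⁻¹ • x.1 := by rw [e, Units.val_mul, ht]; simp [smul_smul, t0]
  haveI : Finite ↥⁅P, P⁆ := Finite.of_injective _ (Subgroup.inclusion_injective (Subgroup.commutator_le_self P))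
  obtain ⟨w, e, a, b, e1, e2, e3, e4⟩ := hm2 ((Units.coeHom _).comp (Subgroup.subtype ⁅P, P⁆)) H.two H.dim
    (fun a b e => Subtype.ext (Units.ext e)) H.perf (fun g => H.det _ (Subgroup.commutator_le_self P g.2))
    (g := ⟨y, hy⟩) (i := (c / t) ^ 2) (by field_simp; linear_combination t4 - c4)
    (show y.1 * y.1 = _ by simp only [ye, xe, nc k V, he]; match_scalars <;> field_simp <;> ring) (show trace k V y.1 ≠ 0 by
      simp only [ye, xe, map_smul, map_add, map_sub, (IsIdempotentElem.isProj_range _ he).trace, re, trace_one, H.dim,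
        smul_eq_mul]
      rw [show t⁻¹ * (c * (-1 * ((1 : ℕ) : k) + (((4 : ℕ) : k) - (1 : ℕ)))) = t⁻¹ * c * 2 by push_cast; ring]
      exact mul_ne_zero (mul_ne_zero (inv_ne_zero t0) (by rintro rfl; simp at c4)) H.two)
  have := H.nsS ns (Subgroup.commutator_le_self P w.2) e1 e2 e4
  have a0 : a = 0 := mul_self_eq_zero.1 (mul_left_cancel₀ H.two (by linear_combination this + e3))
  have b0 : b = 0 := mul_self_eq_zero.1 (by rw [← this, a0, mul_zero])
  have := H.nontriv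
  exact w.1.ne_zero (by simpa [a0, b0] using e4)

end Cfsg.Agent.H6.L4
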