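import Mathlib

/-! Quadratic elements of order five: the arithmetic of the icosahedral configuration. -/

set_option autoImplicit false
set_option linter.unusedSimpArgs false
set_option linter.unusedSectionVars false
set_option linter.unusedVariables false

namespace Cfsg.Agent.H8.N5

/-- `ℤ[θ]` -/
abbrev Z2 := ℤ × ℤ

def zm (x y : Z2) : Z2 := (x.1 * y.1 + x.2 * y.2, x.1 * y.2 + x.2 * y.1 + x.2 * y.2)

def ty : List (Z2 × Z2) := [((0, 0), (10, -5)), ((0, 0), (0, 0)), ((0, 0), (7, -4)), ((0, 0), (3, -1)), ((10, -5), (0, 0)), ((3, -1), (0, 0)), ((7, -4), (0, 0)), ((1, 0), (5, -3)), ((2, -1), (2, -1)), ((5, -3), (1, 0))]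
def qq : List (Z2 × Z2 × Z2 × Z2 × Z2) := [((0, 0), (20, -10), (0, 0), (0, 0), (0, 0)),
  ((0, 0), (10, -5), (0, 0), (125, -75), (0, 0)),
  ((0, 0), (17, -9), (0, 0), (10, -5), (0, 0)),
  ((0, 0), (13, -6), (0, 0), (65, -40), (0, 0)),
  ((10, -5), (10, -5), (125, -75), (125, -75), (-125, 75)),
  ((3, -1), (10, -5), (10, -5), (125, -75), (-35, 20)),
  ((7, -4), (10, -5), (65, -40), (125, -75), (-90, 55)),
  ((1, 0), (15, -8), (1, 0), (29, -16), (-5, 2)),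
  ((2, -1), (12, -6), (5, -3), (80, -48), (-20, 12)),
  ((5, -3), (11, -5), (34, -21), (106, -65), (-60, 37)),
  ((0, 0), (0, 0), (0, 0), (0, 0), (0, 0)),
  ((0, 0), (7, -4), (0, 0), (65, -40), (0, 0)),
  ((0, 0), (3, -1), (0, 0), (10, -5), (0, 0)),
  ((10, -5), (0, 0), (125, -75), (0, 0), (0, 0)),
  ((3, -1), (0, 0), (10, -5), (0, 0), (0, 0)),
  ((7, -4), (0, 0), (65, -40), (0, 0), (0, 0)),
  ((1, 0), (5, -3), (1, 0), (34, -21), (5, -3)),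
  ((2, -1), (2, -1), (5, -3), (5, -3), (5, -3)),
  ((5, -3), (1, 0), (34, -21), (1, 0), (5, -3)),
  ((0, 0), (14, -8), (0, 0), (0, 0), (0, 0)),
  ((0, 0), (10, -5), (0, 0), (25, -15), (0, 0)),
  ((10, -5), (7, -4), (125, -75), (65, -40), (-90, 55)),
  ((3, -1), (7, -4), (10, -5), (65, -40), (-25, 15)),
  ((7, -4), (7, -4), (65, -40), (65, -40), (-65, 40)),
  ((1, 0), (12, -7), (1, 0), (5, -3), (-2, 1)),
  ((2, -1), (9, -5), (5, -3), (34, -21), (-13, 8)),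
  ((5, -3), (8, -4), (34, -21), (52, -32), (-42, 26)),
  ((0, 0), (6, -2), (0, 0), (0, 0), (0, 0)),
  ((10, -5), (3, -1), (125, -75), (10, -5), (-35, 20)),
  ((3, -1), (3, -1), (10, -5), (10, -5), (-10, 5)),
  ((7, -4), (3, -1), (65, -40), (10, -5), (-25, 15)),
  ((1, 0), (8, -4), (1, 0), (8, -4), (2, -2)),
  ((2, -1), (5, -2), (5, -3), (1, 0), (-2, 1)),
  ((5, -3), (4, -1), (34, -21), (5, -3), (-13, 8)),
  ((20, -10), (0, 0), (0, 0), (0, 0), (0, 0)),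
  ((13, -6), (0, 0), (65, -40), (0, 0), (0, 0)),
  ((17, -9), (0, 0), (10, -5), (0, 0), (0, 0)),
  ((11, -5), (5, -3), (106, -65), (34, -21), (-60, 37)),
  ((12, -6), (2, -1), (80, -48), (5, -3), (-20, 12)),
  ((15, -8), (1, 0), (29, -16), (1, 0), (-5, 2)),
  ((6, -2), (0, 0), (0, 0), (0, 0), (0, 0)),
  ((10, -5), (0, 0), (25, -15), (0, 0), (0, 0)),
  ((4, -1), (5, -3), (5, -3), (34, -21), (-13, 8)),
  ((5, -2), (2, -1), (1, 0), (5, -3), (-2, 1)),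
  ((8, -4), (1, 0), (8, -4), (1, 0), (2, -2)),
  ((14, -8), (0, 0), (0, 0), (0, 0), (0, 0)),
  ((8, -4), (5, -3), (52, -32), (34, -21), (-42, 26)),
  ((9, -5), (2, -1), (34, -21), (5, -3), (-13, 8)),
  ((12, -7), (1, 0), (5, -3), (1, 0), (-2, 1)),
  ((2, 0), (10, -6), (0, 0), (0, 0), (0, 0)),
  ((3, -1), (7, -4), (2, -1), (13, -8), (-5, 3)),
  ((6, -3), (6, -3), (25, -15), (25, -15), (-25, 15)),
  ((4, -2), (4, -2), (0, 0), (0, 0), (0, 0)),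
  ((7, -4), (3, -1), (13, -8), (2, -1), (-5, 3)),
  ((10, -6), (2, 0), (0, 0), (0, 0), (0, 0))]

def hh (r : ℤ) (x : Z2) : ℤ := if r = 0 then x.1 * x.1 + x.1 * x.2 - x.2 * x.2 else x.1 + r * x.2

def nz (r : ℤ) (x y : Z2) : Bool :=
  (if r = 0 then 330 ^ 20 else 1) % Nat.gcd (Nat.gcd (hh r x).natAbs (hh r y).natAbs)
    (Nat.gcd (hh r (x + y)).natAbs (if r = 0 then 0 else 11)) == 0

def fin (r : ℤ) (S1 S2 a b c : Z2) : Bool := nz r (a - 2 • zm S1 S1) (b - 2 • zm S2 S2) ||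
  ty.all fun t => t == ((10, -5), (0, 0)) || nz r (zm (10, -5) t.1 - zm ((10, -5) - 2 • (S1 + S2))
    ((10, -5) - 2 • (S1 + S2))) (zm (10, -5) t.2 - 8 • zm S1 S2 - 4 • c)

def go (r : ℤ) (S1 S2 : Z2) (L : List (Z2 × Z2 × Z2)) : ℕ → Z2 × Z2 × Z2 → Bool
  | 0, s => fin r S1 S2 s.1 s.2.1 s.2.2
  | n + 1, s => L.all fun d => go r S1 S2 L n (s + d)

def cp (r : ℤ) (S1 S2 : Z2) : List (Z2 × Z2 × Z2) :=
  (qq.filter fun b => !nz r (S1 - b.1) (S2 - b.2.1)).map fun b => b.2.2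

theorem chk : ∀ r ∈ [0, 4, 8], ∀ a ∈ qq, go r a.1 a.2.1 (cp r a.1 a.2.1) 5 a.2.2 = true := by decide +kernel

theorem mem_qq : ∀ s ∈ ty, ∀ t ∈ ty, (s.1 + t.1, s.2 + t.2, zm (s.1 - t.1) (s.1 - t.1), zm (s.2 - t.2) (s.2 - t.2),
    zm (s.1 - t.1) (s.2 - t.2)) ∈ qq := by decide +kernel

variable {k : Type*} [Field k] {θ : k}

def ez (θ : k) (x : Z2) : k := x.1 + x.2 * θ

theorem ez_add (x y : Z2) : ez θ (x + y) = ez θ x + ez θ y := by simp [ez]; ring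
theorem ez_sub (x y : Z2) : ez θ (x - y) = ez θ x - ez θ y := by simp [ez]; ring
theorem ez_ns (n : ℕ) (x : Z2) : ez θ (n • x) = n * ez θ x := by simp [ez]; ring
theorem ez_mul (h : θ ^ 2 = θ + 1) (x y : Z2) : ez θ (zm x y) = ez θ x * ez θ y := by
  simp only [ez, zm]; push_cast; linear_combination -(x.2 * y.2 : k) * h

/-- the admissible eigenvalues -/
def Al (θ a : k) : Prop := a = 2 ∨ a = θ - 1 ∨ a = 1 ∨ a = θ

/-- the admissible types -/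
def Ty (θ m m' : k) : Prop :=
  ∃ a b, Al θ a ∧ Al θ b ∧ m = (a - 2) * (b - 2) ∧ m' = (a - θ + 1) * (b - θ + 1)

theorem Ty.ex (h : θ ^ 2 = θ + 1) {m m' : k} (t : Ty θ m m') : ∃ t ∈ ty, m = ez θ t.1 ∧ m' = ez θ t.2 := by
  obtain ⟨a, b, ha, hb, rfl, rfl⟩ := t
  simp only [ty, List.mem_cons, List.not_mem_nil, or_false, exists_eq_or_imp, exists_eq_left, ez]
  push_cast
  rcases ha with rfl | rfl | rfl | rfl <;> rcases hb with rfl | rfl | rfl | rfl <;> grind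

theorem mode (h : θ ^ 2 = θ + 1) (h2 : (2 : k) ≠ 0) (h3 : (3 : k) ≠ 0) (h5 : (5 : k) ≠ 0) :
    ∃ r ∈ [0, 4, 8], ∀ x y, ez θ x = 0 → ez θ y = 0 → nz r x y = false := by
  have key : ∀ (r : ℤ) (D c : ℕ), (if r = 0 then 330 ^ 20 else 1) = D → (if r = 0 then 0 else 11) = c →
      (D : k) ≠ 0 → (c : k) = 0 → (∀ x, ez θ x = 0 → (hh r x : k) = 0) →
      ∀ x y, ez θ x = 0 → ez θ y = 0 → nz r x y = false := fun r D c e1 e2 d0 c0 H x y a b => by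
    rw [nz, e1, e2, beq_eq_false_iff_ne]
    intro q
    have g : ∀ m n : ℕ, (m : k) = 0 → (n : k) = 0 → (Nat.gcd m n : k) = 0 := fun m n a b => by
      have := congrArg (Int.cast : ℤ → k) (Nat.gcd_eq_gcd_ab m n)
      simpa [a, b] using this
    have na : ∀ x, ez θ x = 0 → ((hh r x).natAbs : k) = 0 := fun x a => by
      rcases Int.natAbs_eq (hh r x) with e | e <;> have := H x a <;> rw [e] at this <;> simpa using this
    obtain ⟨m, hm⟩ := Nat.dvd_of_mod_eq_zero q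
    exact d0 (by rw [hm, Nat.cast_mul, g _ _ (g _ _ (na x a) (na y b)) (g _ _ (na _ (by
      rw [ez_add, a, b, add_zero])) c0), zero_mul])
  by_cases e : (11 : k) = 0
  · rcases mul_eq_zero.1 (show (θ - 4) * (θ - 8) = 0 by linear_combination h + (3 - θ) * e) with q | q
    · exact ⟨4, by simp, key 4 _ _ rfl rfl (by simp) (by simpa using e) fun x a => by
        simp [hh, ez] at a ⊢; linear_combination a - x.2 * q⟩
    · exact ⟨8, by simp, key 8 _ _ rfl rfl (by simp) (by simpa using e) fun x a => by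
        simp [hh, ez] at a ⊢; linear_combination a - x.2 * q⟩
  · refine ⟨0, by simp, key 0 _ _ rfl rfl ?_ (by simp) fun x a => ?_⟩
    · have : ((330 : ℕ) : k) = 2 * 3 * 5 * 11 := by norm_num
      rw [if_pos rfl, Nat.cast_pow, this]
      exact pow_ne_zero _ (mul_ne_zero (mul_ne_zero (mul_ne_zero h2 h3) h5) e)
    · simp [hh, ez] at a ⊢; linear_combination (x.1 + x.2 - x.2 * θ) * a + x.2 * x.2 * h

theorem ar (h : θ ^ 2 = θ + 1) (h2 : (2 : k) ≠ 0) (h3 : (3 : k) ≠ 0) (h5 : (5 : k) ≠ 0)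
    {a b a' b' : Fin 6 → k} {S1 S2 T1 T2 : k} (t : ∀ j, Ty θ (a j) (b j)) (t' : ∀ j, Ty θ (a' j) (b' j))
    (s1 : ∀ j, a j + a' j = S1) (s2 : ∀ j, b j + b' j = S2) (d1 : ∑ j, (a j - a' j) ^ 2 = 2 * S1 ^ 2)
    (d2 : ∑ j, (b j - b' j) ^ 2 = 2 * S2 ^ 2) (tt : Ty θ T1 T2)
    (e1 : (θ - 3) ^ 2 * T1 = ((θ - 3) ^ 2 - 2 * (S1 + S2)) ^ 2)
    (e2 : (θ - 3) ^ 2 * T2 = 8 * S1 * S2 + 4 * ∑ j, (a j - a' j) * (b j - b' j)) : T1 = (θ - 3) ^ 2 ∧ T2 = 0 := by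
  obtain ⟨r, hr, nz0⟩ := mode h h2 h3 h5
  have ex : ∀ j, ∃ q ∈ qq, S1 = ez θ q.1 ∧ S2 = ez θ q.2.1 ∧ (a j - a' j) ^ 2 = ez θ q.2.2.1 ∧
      (b j - b' j) ^ 2 = ez θ q.2.2.2.1 ∧ (a j - a' j) * (b j - b' j) = ez θ q.2.2.2.2 := fun j => by
    obtain ⟨s, hs, x1, x2⟩ := (t j).ex h
    obtain ⟨u, hu, y1, y2⟩ := (t' j).ex h
    exact ⟨_, mem_qq s hs u hu, by simp only [ez_add, ez_mul h, ez_sub, ← x1, ← x2, ← y1, ← y2, s1, s2, sq,
      and_self]⟩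
  choose q hq q1 q2 q3 q4 q5 using ex
  have mc : ∀ j, (q j).2.2 ∈ cp r (q 0).1 (q 0).2.1 := fun j => List.mem_map.2 ⟨q j, List.mem_filter.2 ⟨hq j, by
    rw [nz0 _ _ (by rw [ez_sub, ← q1, ← q1, sub_self]) (by rw [ez_sub, ← q2, ← q2, sub_self])]; rfl⟩, rfl⟩
  have c := chk r hr _ (hq 0)
  simp only [go, List.all_eq_true] at c
  have c := c _ (mc 1) _ (mc 2) _ (mc 3) _ (mc 4) _ (mc 5)
  simp only [Fin.sum_univ_six] at d1 d2 e2
  obtain ⟨s, hs, rfl, rfl⟩ := tt.ex h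
  have z : ez θ (10, -5) = (θ - 3) ^ 2 := by simp [ez]; linear_combination -h
  rw [fin, nz0 _ _ (by simp only [ez_sub, ez_ns, ez_mul h, Prod.fst_add, ez_add, ← q1, ← q3]; linear_combination d1)
    (by simp only [ez_sub, ez_ns, ez_mul h, Prod.snd_add, Prod.fst_add, ez_add, ← q2, ← q4]; linear_combination d2),
    Bool.false_or, List.all_eq_true] at c
  have c := c s hs
  rw [nz0 _ _ (by simp only [ez_sub, ez_ns, ez_mul h, ez_add, ← q1, ← q2, z]; linear_combination e1)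
    (by simp only [ez_sub, ez_ns, ez_mul h, Prod.snd_add, ez_add, ← q1, ← q2, ← q5, z]; linear_combination e2),
    Bool.or_false, beq_iff_eq] at c
  subst c
  exact ⟨z, by simp [ez]⟩

end Cfsg.Agent.H8.N5
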