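import Cfsg.Agent.H6.L4.P3

/-! Icosahedral configurations, by computation in the ring of tenth cyclotomic integers. -/

set_option autoImplicit false
set_option linter.unusedSimpArgs false
set_option linter.unusedSectionVars false
set_option linter.unusedVariables false

namespace Cfsg.Agent.H8.N5

open Module Matrix
open Cfsg.Agent.H6.S4 (co M2 um)

abbrev R4 := ℤ × ℤ × ℤ × ℤ
abbrev MM := R4 × R4 × R4 × R4

instance d4 : DecidableEq R4 := inferInstance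
instance dM : DecidableEq MM := inferInstance

def pm (a b : R4) : R4 :=
  let c4 := a.2.1 * b.2.2.2 + a.2.2.1 * b.2.2.1 + a.2.2.2 * b.2.1
  (a.1 * b.1 - c4 - (a.2.2.1 * b.2.2.2 + a.2.2.2 * b.2.2.1),
    a.1 * b.2.1 + a.2.1 * b.1 + c4 - a.2.2.2 * b.2.2.2,
    a.1 * b.2.2.1 + a.2.1 * b.2.1 + a.2.2.1 * b.1 - c4,
    a.1 * b.2.2.2 + a.2.1 * b.2.2.1 + a.2.2.1 * b.2.1 + a.2.2.2 * b.1 + c4)

def mm (A B : MM) : MM := (pm A.1 B.1 + pm A.2.1 B.2.2.1, pm A.1 B.2.1 + pm A.2.1 B.2.2.2,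
  pm A.2.2.1 B.1 + pm A.2.2.2 B.2.2.1, pm A.2.2.1 B.2.1 + pm A.2.2.2 B.2.2.2)

def sI (c : R4) : MM := (c, 0, 0, c)
def o1 : R4 := (1, 0, 0, 0)
def th : R4 := (1, 0, 1, -1)
def yy : MM := (0, -o1, o1, th)
def x1 : MM := ((0, 1, 0, 0), (0, 0, 0, 1), 0, (1, -1, 1, -1))
def x2 : MM := ((0, 1, 0, 0), (0, 0, 1, 0), 0, (1, -1, 1, -1))

def ew (g : MM × MM) : ℕ → ℕ → MM × MM
  | 0, _ => (sI o1, sI o1)
  | f + 1, n => if n ≤ 1 then (sI o1, sI o1) else
    let r := ew g f (n / 2)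
    if n % 2 = 0 then (mm g.1 r.1, mm g.2 r.2) else (mm yy r.1, mm yy r.2)

def sm (f g : Fin 6 → R4) : R4 := pm (f 0) (g 0) + pm (f 1) (g 1) + pm (f 2) (g 2) + pm (f 3) (g 3) +
  pm (f 4) (g 4) + pm (f 5) (g 5)

def Ok (g : MM × MM) (W : Fin 6 → ℕ × ℕ) (t s : ℕ) (u : R4) : Prop :=
  let X := fun j => (ew g 24 (W j).1).1
  let p := fun j => (X j).1 - (X j).2.2.2
  let q := fun j => (X j).2.1
  let r := fun j => (X j).2.2.1
  let A := (ew g 24 s).1
  (∀ j, (ew g 24 (W j).1).2 = yy ∧ ew g 24 (W j).2 = (sI th - X j, yy) ∧ (X j).1 + (X j).2.2.2 = th ∧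
    pm (X j).1 (X j).2.2.2 - pm (q j) (r j) = o1) ∧
  (sm p p = (-4, 0, 2, -2) ∧ sm q r = (-2, 0, 1, -1) ∧ sm p q = 0 ∧ sm p r = 0 ∧ sm q q = 0 ∧ sm r r = 0) ∧
  ew g 24 t = (sI (-o1), sI o1) ∧ (ew g 24 s).2 = sI o1 ∧ pm A.2.2.1 u = o1 ∧
    pm (A.1 - o1) (A.2.2.2 - o1) - pm A.2.1 A.2.2.1 = (3, 0, 0, 0)

instance (g : MM × MM) (W : Fin 6 → ℕ × ℕ) (t s : ℕ) (u : R4) : Decidable (Ok g W t s u) := by
  unfold Ok; dsimp only; infer_instance

theorem ok1 : Ok (x1, yy) ![(2, 2201), (3, 2124), (2050, 2073), (2052, 2065), (2056, 2067), (2064, 2086)]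
    1051747 1585 o1 := by decide +kernel

theorem ok2 : Ok (x2, yy) ![(2, 2237), (3, 2142), (2050, 2109), (2052, 2170), (2056, 2292), (2064, 2095)]
    1189 1057 (0, 1, 0, 0) := by decide +kernel

theorem ok3 : Ok (x2, x1) ![(8047, 4130), (3, 608188), (7073, 4214), (4187, 2170), (4205, 2800),
    (6237, 4151)] 8407721 4681 (0, 0, 0, 1) := by decide +kernel

variable {k V : Type*} [Field k] [AddCommGroup V] [Module k V] [FiniteDimensional k V] {P : Subgroup (End k V)ˣ} {l θ : k}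
  {a b c d : V} {A B A' B' : M2 k}

def ev (l : k) (x : R4) : k := x.1 + x.2.1 * l + x.2.2.1 * l ^ 2 + x.2.2.2 * l ^ 3

def em (l : k) (A : MM) : M2 k := !![ev l A.1, ev l A.2.1; ev l A.2.2.1, ev l A.2.2.2]

theorem ev_add (x y : R4) : ev l (x + y) = ev l x + ev l y := by simp [ev]; ring
theorem ev_sub (x y : R4) : ev l (x - y) = ev l x - ev l y := by simp [ev]; ring

/-- the action of `f` on two planes -/
def Ac (a b c d : V) (f : End k V) (A B : M2 k) : Prop :=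
  (∀ x, f (co a b x) = co a b (A *ᵥ x)) ∧ ∀ x, f (co c d x) = co c d (B *ᵥ x)

def InP (P : Subgroup (End k V)ˣ) (a b c d : V) (A B : M2 k) : Prop := ∃ y ∈ P, Ac a b c d y.1 A B

theorem InP.mul (h : InP P a b c d A B) (h' : InP P a b c d A' B') : InP P a b c d (A * A') (B * B') :=
  let ⟨y, hy, h1, h2⟩ := h
  let ⟨z, hz, h3, h4⟩ := h'
  ⟨y * z, P.mul_mem hy hz, fun x => by rw [um, h3, h1, mulVec_mulVec], fun x => by
    rw [um, h4, h2, mulVec_mulVec]⟩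

/-- the configuration -/
def Cf (P : Subgroup (End k V)ˣ) (a b c d : V) (θ : k) : Prop := ∃ X : Fin 6 → M2 k,
  (∀ j, InP P a b c d (X j) !![0, -1; 1, θ] ∧ InP P a b c d (θ • 1 - X j) !![0, -1; 1, θ] ∧
    (X j).trace = θ ∧ (X j).det = 1) ∧
  (∀ K K' : M2 k, ∑ j, (((2 : k) • X j - θ • 1) * K).trace * (((2 : k) • X j - θ • 1) * K').trace =
    2 * (θ - 3) * (2 * (K * K').trace - K.trace * K'.trace)) ∧ InP P a b c d (-1) 1 ∧
  ∃ (A : M2 k) (u : k), InP P a b c d A 1 ∧ A 1 0 * u = 1 ∧ (A 0 0 - 1) * (A 1 1 - 1) - A 0 1 * A 1 0 = 3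

variable (hl : l ^ 4 - l ^ 3 + l ^ 2 - l + 1 = 0)
include hl

theorem ev_mul (x y : R4) : ev l (pm x y) = ev l x * ev l y := by
  simp only [ev, pm]; push_cast
  linear_combination -((x.2.1 * y.2.2.2 + x.2.2.1 * y.2.2.1 + x.2.2.2 * y.2.1 : k) +
    (x.2.2.1 * y.2.2.2 + x.2.2.2 * y.2.2.1 : k) * (l + 1) + (x.2.2.2 * y.2.2.2 : k) * (l ^ 2 + l)) * hl

theorem em_mul (A B : MM) : em l (mm A B) = em l A * em l B := by
  simp only [em, mm, ev_add, ev_mul hl, mul_fin_two]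

theorem ev_sm (f g : Fin 6 → R4) : ∑ j, ev l (f j) * ev l (g j) = ev l (sm f g) := by
  simp only [Fin.sum_univ_six, sm, ev_add, ev_mul hl]

theorem cf_of {g : MM × MM} {W : Fin 6 → ℕ × ℕ} {t s : ℕ} {u : R4} (ok : Ok g W t s u)
    (hθ : θ = 1 + l ^ 2 - l ^ 3) (h1 : InP P a b c d (em l g.1) (em l g.2))
    (h2 : InP P a b c d !![0, -1; 1, θ] !![0, -1; 1, θ]) : Cf P a b c d θ := by
  have e1 : ev l o1 = 1 := by simp [ev, o1]
  have et : ev l th = θ := by simp [ev, th, hθ]; ring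
  have es : ∀ x, em l (sI x) = ev l x • 1 := fun x => by
    ext i j; fin_cases i <;> fin_cases j <;> simp [em, sI, ev]
  have ey : em l yy = !![0, -1; 1, θ] := by simp [em, yy, et, e1]; simp [ev, o1]
  have w : ∀ f n, InP P a b c d (em l (ew g f n).1) (em l (ew g f n).2) := fun f => by
    have o : InP P a b c d (em l (sI o1)) (em l (sI o1)) :=
      ⟨1, P.one_mem, by simp [es, e1], by simp [es, e1]⟩
    induction f with
    | zero => exact fun _ => o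
    | succ f ih =>
      intro n
      simp only [ew]
      split_ifs
      · exact o
      · simpa only [em_mul hl] using h1.mul (ih _)
      · simpa only [em_mul hl, ey] using h2.mul (ih _)
  obtain ⟨k1, ⟨s1, s2, s3, s4, s5, s6⟩, k2, k3, k4, k5⟩ := ok
  refine ⟨fun j => em l (ew g 24 (W j).1).1, fun j => ?_, fun K K' => ?_, ?_, em l (ew g 24 s).1, ev l u,
    ?_, ?_, ?_⟩
  · obtain ⟨j1, j2, j3, j4⟩ := k1 j
    have a1 := w 24 (W j).1
    have a2 := w 24 (W j).2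
    rw [j1, ey] at a1
    rw [j2, ey] at a2
    refine ⟨a1, ?_, by rw [← et, ← j3, ev_add]; simp [em], by
      rw [← e1, ← j4, ev_sub, ev_mul hl, ev_mul hl]; simp [em]⟩
    convert a2 using 1
    rw [← et, ← es]
    ext i j; fin_cases i <;> fin_cases j <;> simp [em, ev_sub]
  · have e : ∀ j (K : M2 k), (((2 : k) • em l (ew g 24 (W j).1).1 - θ • 1) * K).trace =
        ev l ((ew g 24 (W j).1).1.1 - (ew g 24 (W j).1).1.2.2.2) * (K 0 0 - K 1 1) +
          2 * ev l (ew g 24 (W j).1).1.2.1 * K 1 0 + 2 * ev l (ew g 24 (W j).1).1.2.2.1 * K 0 1 := fun j K => by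
      rw [← et, ← (k1 j).2.2.1, ev_add, ev_sub]
      simp [em, trace_fin_two, mul_apply, Fin.sum_univ_two]; ring
    have f := fun f g x (h : sm f g = x) => (ev_sm hl f g).trans (congrArg (ev l) h)
    have s1 := f _ _ _ s1
    have s2 := f _ _ _ s2
    have s3 := f _ _ _ s3
    have s4 := f _ _ _ s4
    have s5 := f _ _ _ s5
    have s6 := f _ _ _ s6
    have z : ev l 0 = 0 := by simp [ev]
    have z1 : ev l (-4, 0, 2, -2) = 2 * (θ - 3) := by simp [ev, hθ]; ring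
    have z2 : ev l (-2, 0, 1, -1) = θ - 3 := by simp [ev, hθ]; ring
    simp only [e, Fin.sum_univ_six, z, z1, z2, trace_fin_two, mul_apply, Fin.sum_univ_two] at *
    linear_combination (K 0 0 - K 1 1) * (K' 0 0 - K' 1 1) * s1 + 4 * (K 1 0 * K' 0 1 + K 0 1 * K' 1 0) * s2 +
      2 * ((K 0 0 - K 1 1) * K' 1 0 + K 1 0 * (K' 0 0 - K' 1 1)) * s3 +
      2 * ((K 0 0 - K 1 1) * K' 0 1 + K 0 1 * (K' 0 0 - K' 1 1)) * s4 + 4 * K 1 0 * K' 1 0 * s5 +
      4 * K 0 1 * K' 0 1 * s6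
  · have := w 24 t
    rw [k2, es, es, e1, show ev l (-o1) = -1 by simp [ev, o1]] at this
    simpa using this
  · have := w 24 s
    rw [k3, es, e1] at this
    simpa using this
  · rw [← e1, ← k4, ev_mul hl]; simp [em]
  · have := congrArg (ev l) k5
    simp only [ev_sub, ev_mul hl, e1] at this
    simpa [em, ev] using this

end Cfsg.Agent.H8.N5
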