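import Cfsg.Agent.H8.L4.N5a
import Cfsg.Agent.H8.L4.N5b
import Cfsg.Agent.H8.L4.Hm2a

/-! Quadratic elements of projective order five: the icosahedral configurations do not occur. -/

set_option autoImplicit false
set_option linter.unusedSimpArgs false
set_option linter.unusedSectionVars false
set_option linter.unusedVariables false

namespace Cfsg.Agent.H8.N5

open Module Matrix Cfsg.Agent.H6.L4
open Cfsg.Agent.H6.S4 hiding St S2 X3 Quad Pair3 Beta

universe u

variable {k V : Type*} [Field k] [AddCommGroup V] [Module k V] [FiniteDimensional k V]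
  {G : Type u} [Group G] {P : Subgroup (End k V)ˣ} {π : P →* G} {p : ℕ}
  {g g' y t : (End k V)ˣ} {θ ρ l μ : k} {a b c d z : V}

theorem dt (W A U N : M2 k) : (W * A * U + N).det =
    W.det * A.det * U.det + N.det + (A * (U * N.adjugate * W)).trace := by
  simp [det_fin_two, trace_fin_two, adjugate_fin_two, mul_apply, Fin.sum_univ_two]; ring

theorem dt2 (K K' : M2 k) : (K * K').trace = K.trace * K'.trace + (K - K').det - K.det - K'.det := by
  simp [det_fin_two, trace_fin_two, mul_apply, Fin.sum_univ_two]; ring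

theorem dc {X : M2 k} (h1 : X.trace = θ) (h2 : X.det = 1) (c : k) :
    (X - c • 1).det = c ^ 2 - θ * c + 1 ∧ (θ • 1 - X - c • 1).det = c ^ 2 - θ * c + 1 := by
  simp [det_fin_two, trace_fin_two] at *
  constructor
  · linear_combination h2 - c * h1
  · linear_combination h2 - (θ - c) * h1

theorem alg (hθ : θ ^ 2 = θ + 1) (h2 : (2 : k) ≠ 0) (h3 : (3 : k) ≠ 0) (h5 : (5 : k) ≠ 0) (hl : l * μ = 1)
    (hs : l + μ = θ) {W U W' U' m : M2 k} {X : Fin 6 → M2 k} (hX : ∀ j, (X j).trace = θ ∧ (X j).det = 1)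
    (m1 : m.trace = θ) (m2 : m.det = 1)
    (cas : ∀ K K' : M2 k, ∑ j, (((2 : k) • X j - θ • 1) * K).trace * (((2 : k) • X j - θ • 1) * K').trace =
      2 * (θ - 3) * (2 * (K * K').trace - K.trace * K'.trace)) (e : W * U + W' * U' = 1)
    (F : M2 k → Prop) (hF : ∀ Y, F Y → Ty θ ((θ - 3) * (Y - μ • 1).det) ((θ - 3) * (Y - l • 1).det))
    (f1 : ∀ j, F (W * X j * U + W' * m * U')) (f2 : ∀ j, F (W * (θ • 1 - X j) * U + W' * m * U'))
    {Y : M2 k} (hY : Y = μ • 1 + (l - μ) • ((W' * U' - W * U) * (W' * U' - W * U))) (f3 : F Y) :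
    (θ - 3) * (Y - μ • 1).det = (θ - 3) ^ 2 ∧ (θ - 3) * (Y - l • 1).det = 0 := by
  have r1 : μ ^ 2 - θ * μ + 1 = 0 := by linear_combination -hl + μ * hs
  have r2 : l ^ 2 - θ * l + 1 = 0 := by linear_combination -hl + l * hs
  have d2 : (l - μ) ^ 2 = θ - 3 := by linear_combination hθ - 4 * hl + (l + μ + θ) * hs
  have e' : W' * U' = 1 - W * U := eq_sub_of_add_eq' e
  have n0 : ∀ c, c ^ 2 - θ * c + 1 = 0 → (W' * (m - c • 1) * U').det = 0 := fun c r => by
    rw [det_mul, det_mul, (dc m1 m2 c).1, r]; simp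
  have key : ∀ (A : M2 k) (c : k), c ^ 2 - θ * c + 1 = 0 → (A - c • 1).det = c ^ 2 - θ * c + 1 →
      (W * A * U + W' * m * U' - c • 1).det =
        ((A - c • 1) * (U * (W' * (m - c • 1) * U').adjugate * W)).trace := fun A c r r' => by
    have := dt W (A - c • 1) U (W' * (m - c • 1) * U')
    rw [n0 c r, r', r, mul_zero, zero_mul, zero_add, zero_add] at this
    rw [← this]; congr 1
    simp only [mul_sub, sub_mul, mul_smul_comm, smul_mul_assoc, mul_one, e', smul_sub]; abel
  have kd : ∀ c, c ^ 2 - θ * c + 1 = 0 → (U * (W' * (m - c • 1) * U').adjugate * W).det = 0 := fun c r => by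
    rw [det_mul, det_mul, det_adjugate, n0 c r]; simp
  have kk : U * (W' * (m - μ • 1) * U').adjugate * W - U * (W' * (m - l • 1) * U').adjugate * W =
      (l - μ) • (U * (1 - W * U).adjugate * W) := by
    simp only [mul_sub, sub_mul, mul_smul_comm, smul_mul_assoc, mul_one, e']
    generalize W' * m * U' = N
    ext i j
    fin_cases i <;> fin_cases j <;> simp [adjugate_fin_two, mul_apply, Fin.sum_univ_two] <;> ring
  have k1 := kd μ r1
  have k2 := kd l r2
  have a1 := fun j => key (X j) μ r1 (dc (hX j).1 (hX j).2 μ).1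
  have a2 := fun j => key (θ • 1 - X j) μ r1 (dc (hX j).1 (hX j).2 μ).2
  have b1 := fun j => key (X j) l r2 (dc (hX j).1 (hX j).2 l).1
  have b2 := fun j => key (θ • 1 - X j) l r2 (dc (hX j).1 (hX j).2 l).2
  generalize U * (W' * (m - μ • 1) * U').adjugate * W = K at *
  generalize U * (W' * (m - l • 1) * U').adjugate * W = K' at *
  have t1 : K.trace - K'.trace = (l - μ) * ((W * U).trace - 2 * (W * U).det) := by
    rw [← trace_sub, kk]
    simp [-mul_eq_mul_left_iff, det_fin_two, trace_fin_two, adjugate_fin_two, mul_apply, Fin.sum_univ_two]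
    ring
  have t2 : (K - K').det = (l - μ) ^ 2 * ((W * U).det * (1 - W * U).det) := by
    rw [kk, det_smul, det_mul, det_mul, det_adjugate, det_mul]; simp [-mul_eq_mul_left_iff]; ring
  have y1 : (Y - μ • 1).det = (l - μ) ^ 2 * (1 - 2 * (W * U).trace + 4 * (W * U).det) ^ 2 := by
    rw [hY, e']; generalize W * U = A
    simp [-mul_eq_mul_left_iff, det_fin_two, trace_fin_two, mul_apply, Fin.sum_univ_two]; ring
  have y2 : (Y - l • 1).det = (l - μ) ^ 2 * (16 * ((W * U).det * (1 - W * U).det)) := by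
    rw [hY, e']; generalize W * U = A
    simp [det_fin_two, mul_apply, Fin.sum_univ_two]; ring
  have df : ∀ (j : Fin 6) (c : k) (K : M2 k), (θ - 3) * ((X j - c • 1) * K).trace -
      (θ - 3) * ((θ • 1 - X j - c • 1) * K).trace = (θ - 3) * (((2 : k) • X j - θ • 1) * K).trace :=
    fun j c K => by simp only [sub_mul, smul_mul_assoc, one_mul, trace_sub, trace_smul, smul_eq_mul]; ring
  have sq : ∀ K K' : M2 k, ∑ j, (θ - 3) * (((2 : k) • X j - θ • 1) * K).trace *
      ((θ - 3) * (((2 : k) • X j - θ • 1) * K').trace) =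
      (θ - 3) ^ 2 * (2 * (θ - 3) * (2 * (K * K').trace - K.trace * K'.trace)) := fun K K' => by
    rw [← cas, Finset.mul_sum]; exact Finset.sum_congr rfl fun j _ => by ring
  refine ar hθ h2 h3 h5 (S1 := (θ - 3) * (l - μ) * K.trace) (S2 := -((θ - 3) * (l - μ) * K'.trace))
    (fun j => hF _ (f1 j)) (fun j => hF _ (f2 j)) (fun j => ?_) (fun j => ?_) ?_ ?_ (hF _ f3) ?_ ?_
  · simp only [a1, a2]
    simp only [sub_mul, smul_mul_assoc, one_mul, trace_sub, trace_smul, smul_eq_mul, ← hs]; ring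
  · simp only [b1, b2]
    simp only [sub_mul, smul_mul_assoc, one_mul, trace_sub, trace_smul, smul_eq_mul, ← hs]; ring
  · simp only [a1, a2, df, pow_two, sq]
    rw [dt2, sub_self, det_zero, k1]
    linear_combination (-2 * (θ - 3) ^ 2 * K.trace ^ 2) * d2
  · simp only [b1, b2, df, pow_two, sq]
    rw [dt2, sub_self, det_zero, k2]
    linear_combination (-2 * (θ - 3) ^ 2 * K'.trace ^ 2) * d2
  · rw [y1, show (θ - 3) * (l - μ) * K.trace + -((θ - 3) * (l - μ) * K'.trace) =
      (θ - 3) * (l - μ) ^ 2 * ((W * U).trace - 2 * (W * U).det) by linear_combination (θ - 3) * (l - μ) * t1, d2]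
    ring
  · simp only [a1, a2, b1, b2, df, sq]
    rw [dt2, k1, k2, t2, y2, d2]
    linear_combination (8 * (θ - 3) ^ 2 * K.trace * K'.trace) * d2

theorem roots [IsAlgClosed k] (h2 : (2 : k) ≠ 0) (R : M2 k) :
    ∃ a b : k, ∀ c, (R - c • 1).det = (a - c) * (b - c) := by
  obtain ⟨s, hs⟩ := IsAlgClosed.exists_eq_mul_self (R.trace ^ 2 - 4 * R.det)
  refine ⟨(R.trace + s) / 2, (R.trace - s) / 2, fun c => ?_⟩
  have h4 : (4 : k) ≠ 0 := fun e => h2 (pow_eq_zero_iff two_ne_zero |>.1 (by linear_combination e))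
  field_simp
  simp [det_fin_two, trace_fin_two] at hs ⊢
  linear_combination -hs

variable [Fact p.Prime] [CharP k p] [IsAlgClosed k]

theorem al (h : S2 p P π) (hθ : θ ^ 2 = θ + 1) (h4 : θ ^ 2 ≠ 4) (hg : g ∈ P) (hg' : g' ∈ P)
    (e : T g = θ • 1) (e' : T g' = θ • 1) (z0 : z ≠ 0) (hz : T (g * g') z = ρ • z) : Al θ ρ := by
  have θ0 : θ ≠ 0 := by rintro rfl; simp at hθ
  have i5 : ∀ ρ, H6.S4.Irr θ ρ → Al θ ρ := fun ρ i => Or.inr (Or.inr (i.five h.two hθ h4))
  have r5 : ∀ ρ, ρ = 2 ∨ ρ = θ ^ 2 - 2 → Al θ ρ := fun ρ i =>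
    i.elim Or.inl fun i => Or.inr (Or.inl (by linear_combination i + hθ))
  rcases h.pair_cases hg hg' e e' θ0 with c | ⟨r, i, c | ⟨-, c, -⟩ | ⟨r', ne, c, i'⟩⟩
  · have c1 : g'.1 * g.1 = g.1 * g'.1 := congrArg Units.val c.symm
    have c2 : ∀ X, g'.1 * (g.1 * X) = g.1 * (g'.1 * X) := fun X => by rw [← mul_assoc, c1, mul_assoc]
    have : (T (g * g') - (2 : k) • 1) * (T (g * g') - (θ ^ 2 - 2) • 1) = 0 := by
      simp only [T, nc k V, inv_of_T e, inv_of_T e', sq_of_T e, sq_of_T e', sqm_of_T e, sqm_of_T e', c1, c2]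
      module
    have := LinearMap.congr_fun this z
    simp only [End.mul_apply, LinearMap.sub_apply, LinearMap.smul_apply, End.one_apply, hz, map_sub,
      map_smul, LinearMap.zero_apply] at this
    have : ((ρ - 2) * (ρ - (θ ^ 2 - 2))) • z = 0 := by linear_combination (norm := module) this
    exact r5 ρ (by simpa [z0, sub_eq_zero] using this)
  · rw [c] at hz
    exact smul_left_injective k z0 hz ▸ i5 r i
  · exact absurd (by linear_combination c - hθ) θ0
  · obtain ⟨x, hx, w, hw, rfl⟩ := c.sp z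
    have e1 := End.mem_eigenspace_iff.1 hx
    have e2 := End.mem_eigenspace_iff.1 hw
    rw [map_add, e1, e2] at hz
    have e3 : (r - ρ) • x = (ρ - r') • w := by linear_combination (norm := module) hz
    have e4 := c.dj _ (Submodule.smul_mem _ (r - ρ) hx) (e3 ▸ Submodule.smul_mem _ _ hw)
    by_cases x0 : x = 0
    · rw [e4, eq_comm, smul_eq_zero, sub_eq_zero] at e3
      obtain rfl := e3.resolve_right fun w0 => z0 (by simp [x0, w0])
      exact i'.elim (i5 _) fun i' => r5 _ i'.1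
    · obtain rfl := sub_eq_zero.1 ((smul_eq_zero.1 e4).resolve_right x0)
      exact i5 _ i

theorem coord (h : St P π) (hθ : θ ^ 2 = θ + 1) (h4 : θ ^ 2 ≠ 4) (hl : l * μ = 1) (hs : l + μ = θ)
    (hy : y ∈ P) (e : T y = θ • 1) : ∃ (u u' : V) (w : V →ₗ[k] Fin 2 → k),
      (∀ v, y.1 v = μ • v + (l - μ) • co u u' (w v)) ∧ ∀ x, w (co u u' x) = x := by
  have d0 : l - μ ≠ 0 := fun d0 => h4 (by rw [← hs]; linear_combination (l - μ) * d0 + 4 * hl)
  obtain ⟨f, hf⟩ : ∃ f : End k V, y.1 = μ • 1 + (l - μ) • f :=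
    ⟨(l - μ)⁻¹ • (y.1 - μ • 1), by rw [smul_inv_smul₀ d0]; abel⟩
  have ff : f * f = f := smul_right_injective _ (mul_ne_zero d0 d0) (by
    have := sq_of_T e
    simp only [hf, nc k V, ← hs] at this ⊢
    linear_combination (norm := module) this + hl • (1 : End k V))
  have r : H8.L4.rk f = 2 := by
    have d := h.det y hy
    rw [show y.1 = μ • ((l * l) • f + (1 - f)) by
      rw [hf]; linear_combination (norm := module) hl • (-l • f), LinearMap.det_smul, H8.L4.det_idem ff,
      h.dim] at d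
    have l1 : l ^ 2 ≠ 1 := fun q => d0 (by linear_combination μ * q - l * hl)
    have l2 : l ^ 4 ≠ 1 := fun q => by
      have : l ^ 2 + 1 = 0 := (mul_eq_zero.1 (show (l ^ 2 - 1) * (l ^ 2 + 1) = 0 by
        linear_combination q)).resolve_left (sub_ne_zero.2 l1)
      have : θ = 0 := by linear_combination μ * this - hs - l * hl
      simp [this] at hθ
    have := h.rk4 f
    change H8.L4.rk f ≤ 4 at this
    have q : (l * μ) ^ 4 = 1 := by rw [hl, one_pow]
    have d' : (l * l) ^ H8.L4.rk f = l ^ 4 := by linear_combination l ^ 4 * d - (l * l) ^ H8.L4.rk f * q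
    interval_cases H8.L4.rk f
    · exact absurd (by linear_combination -d') l2
    · exact absurd (by linear_combination -μ ^ 4 * l ^ 2 * d' - (l ^ 2 - 1) * q) l1
    · rfl
    · exact absurd (by linear_combination μ ^ 4 * d' - (l ^ 2 - 1) * q) l1
    · exact absurd (by linear_combination μ ^ 4 * d' - (l ^ 4 - 1) * q) l2
  let B := Module.finBasisOfFinrankEq k _ r
  have hB : ∀ x, co (B 0).1 (B 1).1 x = (B.equivFun.symm x).1 := fun x => by
    simp [co_apply, Fin.sum_univ_two]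
  refine ⟨B 0, B 1, B.equivFun.toLinearMap ∘ₗ f.rangeRestrict, fun v => by simp [hB, hf], fun x => ?_⟩
  rw [hB, LinearMap.comp_apply, LinearEquiv.coe_coe, ← LinearEquiv.eq_symm_apply]
  obtain ⟨_, v, rfl⟩ := B.equivFun.symm x
  exact Subtype.ext (LinearMap.congr_fun ff v)

theorem ty5 (h : S2 p P π) (hθ : θ ^ 2 = θ + 1) (h4 : θ ^ 2 ≠ 4) (hl : l * μ = 1) (hs : l + μ = θ)
    (hy : y ∈ P) (e : T y = θ • 1) {u u' : V} {w : V →ₗ[k] Fin 2 → k}
    (h1 : ∀ v, y.1 v = μ • v + (l - μ) • co u u' (w v)) (h2 : ∀ x, w (co u u' x) = x)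
    (hg : g ∈ P) (e' : T g = θ • 1) {Y : M2 k} (hY : ∀ x, w (g.1 (co u u' x)) = Y *ᵥ x) :
    ∃ a b, Al θ a ∧ Al θ b ∧ (θ - 3) * (Y - μ • 1).det = (a - 2) * (b - 2) ∧
      (θ - 3) * (Y - l • 1).det = (a - θ + 1) * (b - θ + 1) ∧
      ∀ ρ z, z ≠ 0 → y.1 z = l • z → T (y * g) z = ρ • z → (a - ρ) * (b - ρ) = 0 := by
  have d0 : l - μ ≠ 0 := fun d0 => h4 (by rw [← hs]; linear_combination (l - μ) * d0 + 4 * hl)
  have d2 : (l - μ) ^ 2 = θ - 3 := by linear_combination hθ - 4 * hl + (l + μ + θ) * hs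
  have f1 : ∀ z, y.1 z = l • z → co u u' (w z) = z := fun z hz => smul_right_injective V d0 (by
    have := h1 z
    simp only; linear_combination (norm := module) hz - this)
  have f2 : ∀ x, y.1 (co u u' x) = l • co u u' x := fun x => by rw [h1, h2]; module
  have f3 : ∀ v, w (y.1 v) = l • w v := fun v => by rw [h1, map_add, map_smul, map_smul, h2]; module
  obtain ⟨a, b, hab⟩ := roots h.two ((l - μ) • Y + (μ * θ) • 1)
  have f4 : ∀ x, T (y * g) (co u u' x) = co u u' (((l - μ) • Y + (μ * θ) • 1) *ᵥ x) := fun x => by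
    rw [← f1 (T (y * g) _) (by rw [← End.mul_apply, ← (xi_comm e e').1, End.mul_apply, f2, map_smul])]
    congr 1
    simp only [T, _root_.mul_inv_rev, LinearMap.add_apply, um, inv_of_T e, inv_of_T e', LinearMap.sub_apply,
      LinearMap.smul_apply, End.one_apply, f2, f3, map_add, map_sub, map_smul, hY, h2, add_mulVec,
      smul_mulVec, one_mulVec, ← hs]
    module
  have f5 : ∀ c, (a - c) * (b - c) = 0 → Al θ c := fun c hc => by
    obtain ⟨x, x0, hx⟩ := exists_mulVec_eq_zero_iff.2 ((hab c).trans hc)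
    rw [sub_mulVec, sub_eq_zero, smul_mulVec, one_mulVec] at hx
    exact al h hθ h4 hy hg e e' (z := co u u' x) (fun q => x0 (by rw [← h2 x, q, map_zero]))
      (by rw [f4, hx, map_smul])
  have ds : ∀ (c : k) (M : M2 k), (c • M).det = c ^ 2 * M.det := fun c M => by simp
  refine ⟨a, b, f5 a (by simp), f5 b (by simp), ?_, ?_, fun ρ z z0 hz q => ?_⟩
  · rw [← hab, ← d2, ← ds]; congr 1
    rw [← hs]; linear_combination (norm := module) hl • ((-2 : k) • (1 : M2 k))
  · rw [show (a - θ + 1) * (b - θ + 1) = (a - (θ - 1)) * (b - (θ - 1)) by ring, ← hab, ← d2, ← ds]; congr 1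
    linear_combination (norm := module) (2 * hl - hθ - (l + θ) * hs) • (1 : M2 k)
  · rw [← hab, ← exists_mulVec_eq_zero_iff]
    refine ⟨w z, fun q => z0 (by rw [← f1 z hz, q, map_zero]), ?_⟩
    rw [sub_mulVec, ← h2 (_ *ᵥ w z), ← f4, f1 z hz, q, smul_mulVec, one_mulVec, map_smul, sub_self]

end Cfsg.Agent.H8.N5
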