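import Cfsg.Agent.H8.L4.N5c

/-! No quadratic elements of projective order five. -/

set_option autoImplicit false
set_option linter.unusedSimpArgs false
set_option linter.unusedSectionVars false
set_option linter.unusedVariables false

namespace Cfsg.Agent.H8.N5

open Module Matrix Cfsg.Agent.H6.L4
open Cfsg.Agent.H6.S4 hiding St S2 X3 Quad Pair3 Beta

universe u

variable {k V : Type*} [Field k] [AddCommGroup V] [Module k V] [FiniteDimensional k V]
  {G : Type u} [Group G] {P : Subgroup (End k V)ˣ} {π : P →* G} {p : ℕ}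
  {g g' y t : (End k V)ˣ} {θ ρ l μ : k} {a b c d z : V}

theorem ext4 (sp : ∀ z, ∃ x x' : Fin 2 → k, z = co a b x + co c d x') {f f' : End k V}
    (h1 : ∀ x : Fin 2 → k, f (co a b x) = f' (co a b x))
    (h2 : ∀ x : Fin 2 → k, f (co c d x) = f' (co c d x)) : f = f' :=
  LinearMap.ext fun z => by obtain ⟨x, x', rfl⟩ := sp z; rw [map_add, map_add, h1, h2]

theorem T_ac (sp : ∀ z, ∃ x x' : Fin 2 → k, z = co a b x + co c d x') {A B : M2 k} (h : Ac a b c d y.1 A B)
    (hA : A * A = θ • A - 1) (hB : B * B = θ • B - 1) : T y = θ • 1 :=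
  T_of_sq (ext4 sp (fun x => by
    simp only [End.mul_apply, h.1, mulVec_mulVec, hA, sub_mulVec, smul_mulVec, one_mulVec, map_sub, map_smul,
      LinearMap.sub_apply, LinearMap.smul_apply, End.one_apply]) fun x => by
    simp only [End.mul_apply, h.2, mulVec_mulVec, hB, sub_mulVec, smul_mulVec, one_mulVec, map_sub, map_smul,
      LinearMap.sub_apply, LinearMap.smul_apply, End.one_apply])

variable [Fact p.Prime] [CharP k p] [IsAlgClosed k]

theorem core1 (h : S2 p P π) (hθ : θ ^ 2 = θ + 1) (h4 : θ ^ 2 ≠ 4) (h3 : (3 : k) ≠ 0) (hl : l * μ = 1)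
    (hs : l + μ = θ) (sp : ∀ z, ∃ x x' : Fin 2 → k, z = co a b x + co c d x') (cf : Cf P a b c d θ)
    (ht : t ∈ P) (at' : Ac a b c d t.1 (-1) 1) (tt : t⁻¹ = t) (hy : y ∈ P) (e : T y = θ • 1) {v : V}
    (hv : y.1 v = l • v) : (t * y * t⁻¹).1 v = l • v := by
  obtain ⟨X, hX, cas, -⟩ := cf
  have θ0 : θ ≠ 0 := by rintro rfl; simp at hθ
  obtain ⟨u, u', w, h1, h2⟩ := coord h.toSt hθ h4 hl hs hy e
  obtain ⟨x0, y0, e0⟩ := sp u
  obtain ⟨x1, y1, e1⟩ := sp u'
  let W := LinearMap.toMatrix' (w ∘ₗ co a b)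
  let W' := LinearMap.toMatrix' (w ∘ₗ co c d)
  have hW : ∀ x, w (co a b x) = W *ᵥ x := fun x => by simp [W]
  have hW' : ∀ x, w (co c d x) = W' *ᵥ x := fun x => by simp [W']
  let U : M2 k := !![x0 0, x1 0; x0 1, x1 1]
  let U' : M2 k := !![y0 0, y1 0; y0 1, y1 1]
  have hU : ∀ x, co u u' x = co a b (U *ᵥ x) + co c d (U' *ᵥ x) := fun x => by
    simp [e0, e1, co_apply, U, U', mulVec, dotProduct]; module
  have ps : ∀ {f : End k V} {A B : M2 k}, Ac a b c d f A B → ∀ x,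
      w (f (co u u' x)) = (W * A * U + W' * B * U') *ᵥ x := fun {f A B} h x => by
    simp only [hU, map_add, h.1, h.2, hW, hW', mulVec_mulVec, add_mulVec, mul_assoc]
  have e2 : W * U + W' * U' = 1 := Matrix.mulVec_injective (funext fun x => by
    have := ps (f := 1) (A := 1) (B := 1) ⟨fun x => by simp, fun x => by simp⟩ x
    simpa [h2, eq_comm] using this)
  obtain ⟨hy', e'⟩ := T_conj_mem ht ⟨hy, e⟩
  have t2 : ∀ v, t.1 (t.1 v) = v := fun v => by nth_rewrite 1 [← tt]; exact ui t v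
  have pt : ∀ x, w (t.1 (co u u' x)) = (W' * U' - W * U) *ᵥ x := fun x => by
    rw [ps at']; congr 1; simp [sub_eq_neg_add]
  have hY : ∀ x, w ((t * y * t⁻¹).1 (co u u' x)) =
      (μ • 1 + (l - μ) • ((W' * U' - W * U) * (W' * U' - W * U))) *ᵥ x := fun x => by
    rw [tt, um, um, h1, map_add, map_smul, map_smul, t2, map_add, map_smul, map_smul, h2, pt, pt,
      mulVec_mulVec, add_mulVec, smul_mulVec, smul_mulVec, one_mulVec]
  have m1 : (!![0, -1; 1, θ] : M2 k).trace = θ := by simp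
  have m2 : (!![0, -1; 1, θ] : M2 k).det = 1 := by simp
  have m3 := ch2 m2
  rw [m1] at m3
  obtain ⟨k1, k2⟩ := alg hθ h.two h3 (gold5 hθ h4) hl hs (fun j => (hX j).2.2) m1 m2 cas e2
    (fun Y => ∃ g ∈ P, T g = θ • 1 ∧ ∀ x, w (g.1 (co u u' x)) = Y *ᵥ x)
    (fun Y ⟨g, hg, eg, hY⟩ => let ⟨a, b, i1, i2, i3, i4, _⟩ := ty5 h hθ h4 hl hs hy e h1 h2 hg eg hY
      ⟨a, b, i1, i2, i3, i4⟩)
    (fun j => let ⟨g, hg, i⟩ := (hX j).1
      ⟨g, hg, T_ac sp i (by rw [ch2 (hX j).2.2.2, (hX j).2.2.1]) m3, ps i⟩)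
    (fun j => let ⟨g, hg, i⟩ := (hX j).2.1
      ⟨g, hg, T_ac sp i (by
        simp only [mul_sub, sub_mul, ch2 (hX j).2.2.2, (hX j).2.2.1, smul_mul_assoc, mul_smul_comm, one_mul,
          mul_one]; module) m3, ps i⟩) rfl ⟨_, hy', e', hY⟩
  obtain ⟨α, β, -, -, i3, i4, i5⟩ := ty5 h hθ h4 hl hs hy e h1 h2 hy' e' hY
  have θ3 : θ - 3 ≠ 0 := fun q => h4 (by linear_combination q + hθ)
  have i6 : ∀ ρ z, z ≠ 0 → y.1 z = l • z → T (y * (t * y * t⁻¹)) z = ρ • z → ρ = θ - 1 := fun ρ z z0 q q' => by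
    have i7 := i5 ρ z z0 q q'
    rw [k1] at i3
    rw [k2] at i4
    have : α = θ - 1 ∧ β = θ - 1 := by
      rcases mul_eq_zero.1 i4.symm with r | r
      · exact ⟨by linear_combination r, mul_left_cancel₀ θ3 (by linear_combination -i3 - (β - 2) * r)⟩
      · exact ⟨mul_left_cancel₀ θ3 (by linear_combination -i3 - (α - 2) * r), by linear_combination r⟩
    rw [this.1, this.2, mul_self_eq_zero, sub_eq_zero] at i7
    exact i7.symm
  generalize t * y * t⁻¹ = y' at *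
  have cm := h.red hy hy' e e' θ0 fun ρ v v0 hv => by
    by_contra! r
    obtain ⟨i, j, ⟨j1, j2⟩, ⟨j3, j4⟩, rfl⟩ := dec e e' r.1 r.2 hl hs hv
    by_cases i0 : i = 0
    · exact r.2 (by linear_combination i6 ρ j (fun q => v0 (by simp [i0, q])) j4 j3 - hθ)
    · exact r.2 (by linear_combination i6 ρ i i0 j2 j1 - hθ)
  by_contra ne
  have c1 : y.1 (y'.1 v) = l • y'.1 v := by rw [← um, cm, um, hv, map_smul]
  have c2 : y'.1 (y'.1 v) = θ • y'.1 v - v := LinearMap.congr_fun (sq_of_T e') v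
  have c3 : y.1 (y'.1 v - l • v) = l • (y'.1 v - l • v) := by rw [map_sub, map_smul, c1, hv]; module
  have c4 : y'.1 (y'.1 v - l • v) = μ • (y'.1 v - l • v) := by
    rw [map_sub, map_smul, c2, ← hs]; linear_combination (norm := module) hl • v
  have := i6 _ _ (sub_ne_zero.2 ne) c3 (T_eig (c := 1) (sub_ne_zero.2 ne) (by
    rw [um, c4, map_smul, c3, smul_smul, mul_comm, hl]))
  exact θ3 (by simp at this; linear_combination -this)

theorem core (h : S2 p P π) (hθ : θ ^ 2 = θ + 1) (h4 : θ ^ 2 ≠ 4) (hl : l * μ = 1) (hs : l + μ = θ)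
    (hg : g ∈ P) (e : T g = θ • 1) (a0 : a ≠ 0) (ab : ∀ s : k, b ≠ s • a) (c0 : c ≠ 0)
    (sp : ∀ z, ∃ x x' : Fin 2 → k, z = co a b x + co c d x') (cf : Cf P a b c d θ) : False := by
  have θ0 : θ ≠ 0 := by rintro rfl; simp at hθ
  have d0 : l - μ ≠ 0 := fun d0 => h4 (by rw [← hs]; linear_combination (l - μ) * d0 + 4 * hl)
  obtain ⟨X, hX, cas, ⟨t, ht, at'⟩, A, u, ⟨s, hs', as'⟩, q1, q2⟩ := id cf
  by_cases h3 : (3 : k) = 0
  · have := h.tv s hs' (co a b ![A 0 0 - 1, A 1 0]) fun z => by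
      obtain ⟨x, x', rfl⟩ := sp z
      refine ⟨x 0 + x 1 * (A 1 1 - 1) * u, ?_⟩
      rw [map_add, as'.1, as'.2, one_mulVec, add_sub_add_right_eq_sub, ← map_sub, ← map_smul]
      congr 1
      ext i
      fin_cases i <;> simp [mulVec, dotProduct]
      · linear_combination (-x 1 * u) * q2 - x 1 * u * h3 - x 1 * A 0 1 * q1
      · linear_combination -(x 1 * (A 1 1 - 1)) * q1
    have := congrFun (co_inj a0 ab ((as'.1 ![1, 0]).symm.trans (by rw [this]; rfl))) 1
    simp [mulVec, dotProduct] at this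
    simp [this] at q1
  have tt : t⁻¹ = t := inv_eq_of_mul_eq_one_right (Units.ext (ext4 sp
    (fun x => by simp [at'.1, neg_mulVec]) fun x => by simp [at'.2]))
  have := h.ind (X := {y | y ∈ P ∧ T y = θ • 1}) (fun _ h => h.1) (fun g hg x hx => T_conj_mem hg hx)
    ⟨hg, e⟩ (h.nsc hg e θ0 h4) (fun g => t * g * t⁻¹ = g) (fun g _ hs => hs.conj t)
    (fun x _ y _ hx hy => by rw [← hx, ← hy]; simp only [hx, hy]; nth_rewrite 2 [← hx, ← hy]; group) ?_
  · obtain ⟨r, hr⟩ := h.central ht fun g hg => ⟨1, by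
      rw [one_smul]; exact congrArg Units.val (mul_inv_eq_iff_eq_mul.1 (this g hg)).symm⟩
    have e1 := at'.1 ![1, 0]
    have e2 := at'.2 ![1, 0]
    simp [hr, co_apply, neg_mulVec] at e1 e2
    have r1 : r = 1 := smul_left_injective k c0 (by simpa using e2)
    have r2 : r = -1 := smul_left_injective k a0 (by simpa using e1)
    exact h.two (by linear_combination r2 - r1)
  rintro y ⟨hy, ey⟩
  refine Units.ext (LinearMap.ext fun v => smul_right_injective V d0 ?_)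
  have c2 : y.1 (y.1 v) = θ • y.1 v - v := LinearMap.congr_fun (sq_of_T ey) v
  have c3 : y.1 (y.1 v - μ • v) = l • (y.1 v - μ • v) := by
    rw [map_sub, map_smul, c2, ← hs]; linear_combination (norm := module) hl • v
  have c4 : y⁻¹.1 (y.1 v - l • v) = l • (y.1 v - l • v) := by
    rw [map_sub, map_smul, ui, inv_of_T ey, ← hs]
    simp only [LinearMap.sub_apply, LinearMap.smul_apply, End.one_apply]
    linear_combination (norm := module) hl • (-v)
  have k1 := core1 h hθ h4 h3 hl hs sp cf ht at' tt hy ey c3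
  have k2 := core1 h hθ h4 h3 hl hs sp cf ht at' tt (P.inv_mem hy) (by rw [T_inv, ey]) c4
  rw [show t * y⁻¹ * t⁻¹ = (t * y * t⁻¹)⁻¹ by group, inv_of_T (T_conj_mem ht ⟨hy, ey⟩).2, ← hs] at k2
  simp only [map_sub, map_smul, LinearMap.sub_apply, LinearMap.smul_apply, End.one_apply] at k1 k2 ⊢
  linear_combination (norm := module) k1 + k2

end Cfsg.Agent.H8.N5
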