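import Cfsg.Agent.H8.L4.N5d

/-! No quadratic elements of projective order five: the end. -/

set_option autoImplicit false
set_option linter.unusedSimpArgs false
set_option linter.unusedSectionVars false
set_option linter.unusedVariables false

namespace Cfsg.Agent.H8.N5

open Module Matrix Cfsg.Agent.H6.L4
open Cfsg.Agent.H6.S4 hiding St S2 X3 Quad Pair3 Beta

universe u

variable {k V : Type*} [Field k] [AddCommGroup V] [Module k V] [FiniteDimensional k V]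
  {G : Type u} [Group G] {P : Subgroup (End k V)ˣ} {π : P →* G} {p : ℕ}
  {g g' y t : (End k V)ˣ} {θ ρ ρ' l μ D σ s r : k} {i j n w : End k V} {A : Subalgebra k (End k V)}
  {U I : Submodule k V}

theorem q0 (h2 : (2 : k) ≠ 0) (D0 : D ≠ 0) (hw : w ∈ A) (ww : w * w = D • 1) (c : n * w = w * n)
    (e : n * w + w * n = s • 1) : n ∈ A := by
  have := congrArg (· * w) e
  simp only [← c, nc k V, ww] at this
  rw [show n = (2 * D)⁻¹ • s • w from (eq_inv_smul_iff₀ (mul_ne_zero h2 D0)).2 (by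
    linear_combination (norm := module) this)]
  exact A.smul_mem (A.smul_mem hw _) _

theorem q1 (h2 : (2 : k) ≠ 0) (D0 : D ≠ 0) (σ0 : σ ≠ 0) (hi : i ∈ A) (ii : i * i = D • 1)
    (ij : i * j + j * i = σ • 1) (c : n * i = i * n) (e : n * j + j * n = s • 1) : n ∈ A := by
  have ii' : ∀ X, i * (i * X) = D • X := fun X => by rw [← mul_assoc, ii]; simp
  have c' : ∀ X, n * (i * X) = i * (n * X) := fun X => by rw [← mul_assoc, c, mul_assoc]
  refine q0 h2 D0 hi ii c (s := σ⁻¹ * (2 * D * s)) (smul_right_injective _ σ0 ?_)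
  have e1 := congrArg (fun X => i * X * i) e
  have e2 := congrArg (fun X => i * X * n) ij
  have e3 := congrArg (fun X => i * (n * X)) ij
  simp only [nc k V, ii, ii', c, c', smul_smul, mul_inv_cancel_left₀ σ0] at e1 e2 e3 ⊢
  linear_combination (norm := module) e1 - e2 - e3 + D • e

theorem q2 (h2 : (2 : k) ≠ 0) (h : σ ^ 2 - 4 * D ^ 2 ≠ 0) (hi : i ∈ A) (hj : j ∈ A) (ii : i * i = D • 1)
    (jj : j * j = D • 1) (ij : i * j + j * i = σ • 1) (e1 : n * i + i * n = s • 1)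
    (e2 : n * j + j * n = r • 1) {q : k} (e3 : n * (i * j - j * i) + (i * j - j * i) * n = q • 1) : n ∈ A := by
  have f : ∀ {a b : End k V} {c : k}, a * b + b * a = c • 1 → a * b = c • 1 - b * a ∧
      ∀ X, a * (b * X) = c • X - b * (a * X) := fun {a b c} h => ⟨eq_sub_of_add_eq h, fun X => by
    rw [← mul_assoc, eq_sub_of_add_eq h]; simp only [nc k V]⟩
  have ii' : ∀ X, i * (i * X) = D • X := fun X => by rw [← mul_assoc, ii]; simp
  have jj' : ∀ X, j * (j * X) = D • X := fun X => by rw [← mul_assoc, jj]; simp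
  have := congrArg ((i * j - j * i) * ·) e3
  rw [show n = (2 * (σ ^ 2 - 4 * D ^ 2))⁻¹ • ((i * j - j * i) * (q • 1 - (2 * s) • j + (2 * r) • i)) from
    (eq_inv_smul_iff₀ (mul_ne_zero h2 h)).2 (by
      simp only [nc k V, f e1, f e2, f ((add_comm _ _).trans ij), ii, ii', jj, jj'] at this ⊢
      linear_combination (norm := module) this)]
  exact A.smul_mem (A.mul_mem (A.sub_mem (A.mul_mem hi hj) (A.mul_mem hj hi)) (A.add_mem (A.sub_mem
    (A.smul_mem A.one_mem _) (A.smul_mem hj _)) (A.smul_mem hi _))) _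

theorem nsq (hθ : θ ^ 2 = θ + 1) (e : T y = θ • 1) :
    ((2 : k) • y.1 - θ • 1) * ((2 : k) • y.1 - θ • 1) = (θ - 3) • 1 := by
  simp only [nc k V, sq_of_T e]; linear_combination (norm := module) hθ • (1 : End k V)

theorem nanti (e : T g = θ • 1) (e' : T y = θ • 1) (h : T (g * y) = ρ • 1) :
    ((2 : k) • g.1 - θ • 1) * ((2 : k) • y.1 - θ • 1) + ((2 : k) • y.1 - θ • 1) * ((2 : k) • g.1 - θ • 1) =
      (4 * ρ - 2 * θ ^ 2) • 1 := by
  simp only [nc k V, swap_eq e e', h]; module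

theorem ncom (h : g * y = y * g) :
    ((2 : k) • g.1 - θ • 1) * ((2 : k) • y.1 - θ • 1) = ((2 : k) • y.1 - θ • 1) * ((2 : k) • g.1 - θ • 1) := by
  simp only [nc k V, show g.1 * y.1 = y.1 * g.1 from congrArg Units.val h]; module

variable [Fact p.Prime] [CharP k p] [IsAlgClosed k]

theorem eigU (hθ : θ ^ 2 = θ + 1) (hl : l * μ = 1) (hs : l + μ = θ) (e : T g = θ • 1) (e' : T g' = θ • 1)
    (r : ρ = 1 ∨ ρ = θ)
    {z : V} (z0 : z ≠ 0) (hz : T (g * g') z = ρ • z) : ∃ v, v ≠ 0 ∧ T (g * g') v = ρ • v ∧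
      T (g * g') (g'.1 v) = ρ • g'.1 v ∧ (∀ c : k, g'.1 v ≠ c • v) ∧
      (∀ x, g.1 (co v (g'.1 v) x) = co v (g'.1 v) (!![l, ρ - θ * μ; 0, μ] *ᵥ x)) ∧
      ∀ x, g'.1 (co v (g'.1 v) x) = co v (g'.1 v) (!![0, -1; 1, θ] *ᵥ x) := by
  have i : ρ ≠ 2 ∧ ρ ≠ θ ^ 2 - 2 ∧ True := by rcases r with rfl | rfl <;> grind
  obtain ⟨v, v0, h1, h2⟩ : ∃ v, v ≠ 0 ∧ T (g * g') v = ρ • v ∧ g.1 v = l • v := by
    obtain ⟨a, b, ha, hb, rfl⟩ := dec e e' i.1 i.2.1 hl hs hz
    by_cases a0 : a = 0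
    exacts [⟨b, fun q => z0 (by simp [a0, q]), hb⟩, ⟨a, a0, ha⟩]
  refine ⟨v, v0, h1, by rw [← End.mul_apply, (xi_comm e e').2, End.mul_apply, h1, map_smul],
    fun c q => noc e e' i.1 i.2.1 h1 v0 h2 q, fun x => ?_, fun x => ?_⟩
  · rw [co_apply, co_apply, map_add, map_smul, map_smul, gw e e' hl hs h1 h2, h2]
    simp [mulVec, dotProduct]; module
  · rw [co_apply, co_apply, map_add, map_smul, map_smul,
      show g'.1 (g'.1 v) = θ • g'.1 v - v from LinearMap.congr_fun (sq_of_T e') v]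
    simp [mulVec, dotProduct]; module

theorem scal (h : St P π) (hθ : θ ^ 2 = θ + 1) (h4 : θ ^ 2 ≠ 4) (hl : l * μ = 1) (hs : l + μ = θ)
    (H : ∀ x ∈ P, ∀ y ∈ P, T x = θ • 1 → T y = θ • 1 → x * y = y * x ∨ ∃ ρ : k, T (x * y) = ρ • 1)
    (hg : g ∈ P) (hg' : g' ∈ P) (e : T g = θ • 1) (e' : T g' = θ • 1) (ir : ρ = 1 ∨ ρ = θ)
    (c : T (g * g') = ρ • 1) : False := by
  have θ0 : θ ≠ 0 := by rintro rfl; simp at hθ
  have θ3 : θ - 3 ≠ 0 := fun q => h4 (by linear_combination q + hθ)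
  have h2 := h.two
  have s2 : (4 * ρ - 2 * θ ^ 2) ^ 2 = (2 * θ - 2) ^ 2 := by
    rcases ir with rfl | rfl <;> rw [hθ] <;> ring
  have t1 : 2 * θ - 2 ≠ 0 := fun q => h2 (by linear_combination θ * q - 2 * hθ)
  have σ0 : 4 * ρ - 2 * θ ^ 2 ≠ 0 := fun q => t1 (by rw [q] at s2; simpa using s2.symm)
  let A := Algebra.adjoin k {g.1, g'.1}
  have gA : g.1 ∈ A := Algebra.subset_adjoin (by simp)
  have gA' : g'.1 ∈ A := Algebra.subset_adjoin (by simp)
  have nA : ∀ {x : End k V}, x ∈ A → (2 : k) • x - θ • 1 ∈ A := fun hx =>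
    A.sub_mem (A.smul_mem hx _) (A.smul_mem A.one_mem _)
  have ii := nsq hθ e
  have jj := nsq hθ e'
  have ij := nanti e e' c
  have key : ∀ y ∈ P, T y = θ • 1 → y.1 ∈ A ∨ (y * g = g * y ∧ y * g' = g' * y) := fun y hy ey => by
    suffices (2 : k) • y.1 - θ • 1 ∈ A ∨ (y * g = g * y ∧ y * g' = g' * y) from this.imp_left fun q => by
      rw [show y.1 = (2 : k)⁻¹ • ((2 : k) • y.1 - θ • 1 + θ • 1) by simp [h2]]
      exact A.smul_mem (A.add_mem q (A.smul_mem A.one_mem _)) _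
    rcases H y hy g hg ey e with c1 | ⟨r1, c1⟩ <;> rcases H y hy g' hg' ey e' with c2 | ⟨r2, c2⟩
    · exact Or.inr ⟨c1, c2⟩
    · exact Or.inl (q1 h2 θ3 σ0 (nA gA) ii ij (ncom c1) (nanti ey e' c2))
    · exact Or.inl (q1 h2 θ3 σ0 (nA gA') jj ((add_comm _ _).trans ij) (ncom c2) (nanti ey e c1))
    left
    have c1 := nanti ey e c1
    have c2 := nanti ey e' c2
    obtain ⟨m1, e1⟩ := T_conj_mem hg ⟨hg', e'⟩
    obtain ⟨m2, e2⟩ := T_conj_mem (P.inv_mem hg) ⟨hg', e'⟩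
    have k0 : (4 * ρ - 2 * θ ^ 2) ^ 2 - 4 * (θ - 3) ^ 2 ≠ 0 := fun q =>
      pow_ne_zero 4 h2 (by linear_combination -(θ + 1) * (q - s2) + 16 * hθ)
    have n1 := fun c1 => ncom (θ := θ) (g := y) (y := g * g' * g⁻¹) c1
    have n2 := fun c1 => ncom (θ := θ) (g := y) (y := g⁻¹ * g' * g⁻¹⁻¹) c1
    have a1 := fun r c1 => nanti (ρ := r) ey e1 c1
    have a2 := fun r c1 => nanti (ρ := r) ey e2 c1
    obtain ⟨i, hi⟩ : ∃ i, g.1 = (2 : k)⁻¹ • (i + θ • 1) := ⟨(2 : k) • g.1 - θ • 1, by simp [h2]⟩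
    obtain ⟨j, hj⟩ : ∃ j, g'.1 = (2 : k)⁻¹ • (j + θ • 1) := ⟨(2 : k) • g'.1 - θ • 1, by simp [h2]⟩
    have iA := nA gA
    have jA := nA gA'
    have f1 : (2 : k) • (g * g' * g⁻¹).1 - θ • 1 = (4 : k)⁻¹ • ((2 * θ - 2) • j - (4 * ρ - 2 * θ ^ 2) • i +
        θ • (i * j - j * i)) ∧ (2 : k) • (g⁻¹ * g' * g⁻¹⁻¹).1 - θ • 1 = (4 : k)⁻¹ • ((2 * θ - 2) • j -
        (4 * ρ - 2 * θ ^ 2) • i - θ • (i * j - j * i)) := by
      have i' : i = (2 : k) • g.1 - θ • 1 := by simp [hi, h2]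
      have j' : j = (2 : k) • g'.1 - θ • 1 := by simp [hj, h2]
      have sw : ∀ X, g'.1 * (g.1 * X) = ρ • X - g.1 * (g'.1 * X) + θ • (g.1 * X) + θ • (g'.1 * X) -
        (θ * θ) • X := fun X => by rw [← mul_assoc, swap_eq e e', c]; simp only [nc k V]
      constructor <;> rw [eq_inv_smul_iff₀ h.four_ne, i', j'] <;>
        simp only [nc k V, inv_of_T e, swap_eq e e', c, sw, sq_of_T e, sqm_of_T e] <;>
        linear_combination (norm := module) hθ • ((4 : k) • g'.1 - (2 * θ) • (1 : End k V))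
    rw [f1.1] at n1 a1
    rw [f1.2] at n2 a2
    simp only [hi, hj, smul_inv_smul₀ h2, add_sub_cancel_right] at ii jj ij c1 c2 iA jA
    generalize (2 : k) • y.1 - θ • 1 = n at *
    generalize 4 * ρ - 2 * θ ^ 2 = σ at *
    have h4' := h.four_ne
    rcases H y hy _ m1 ey e1 with c3 | ⟨r3, c3⟩
    · rcases H y hy _ m2 ey e2 with c4 | ⟨r4, c4⟩
      · refine q0 (D := -4 * (2 * θ - 2) ^ 2) (w := (2 * θ - 2) • j - σ • i)
          (s := (2 * θ - 2) * (4 * r2 - 2 * θ ^ 2) - σ * (4 * r1 - 2 * θ ^ 2)) h2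
          (mul_ne_zero (neg_ne_zero.2 h4') (pow_ne_zero 2 t1)) (A.sub_mem (A.smul_mem jA _) (A.smul_mem iA _))
          ?_ (smul_right_injective _ (mul_ne_zero h2 (inv_ne_zero h4')) ?_) ?_
        · simp only [nc k V, ii, jj]
          linear_combination (norm := module) (-(2 * θ - 2) * σ) • ij + ((-θ - 1) * s2) • (1 : End k V)
        · have n1 := n1 c3
          have n2 := n2 c4
          simp only [nc k V] at n1 n2 ⊢
          linear_combination (norm := module) n1 + n2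
        · simp only [nc k V]
          linear_combination (norm := module) (2 * θ - 2) • c2 - σ • c1
      · refine q2 h2 k0 iA jA ii jj ij c1 c2 (q := θ⁻¹ * ((2 * θ - 2) * (4 * r2 - 2 * θ ^ 2) -
          σ * (4 * r1 - 2 * θ ^ 2) - 4 * (4 * r4 - 2 * θ ^ 2))) (smul_right_injective _ θ0 ?_)
        have := congrArg ((4 : k) • ·) (a2 _ c4)
        simp only [smul_add, mul_smul_comm, smul_mul_assoc, smul_inv_smul₀ h4', smul_smul θ,
          mul_inv_cancel_left₀ θ0] at this ⊢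
        simp only [nc k V] at this ⊢
        linear_combination (norm := module) (2 * θ - 2) • c2 - σ • c1 - this
    · refine q2 h2 k0 iA jA ii jj ij c1 c2 (q := θ⁻¹ * (4 * (4 * r3 - 2 * θ ^ 2) - (2 * θ - 2) *
        (4 * r2 - 2 * θ ^ 2) + σ * (4 * r1 - 2 * θ ^ 2))) (smul_right_injective _ θ0 ?_)
      have := a1 _ c3
      rw [mul_smul_comm, smul_mul_assoc, ← smul_add, inv_smul_eq_iff₀ h4'] at this
      simp only [nc k V, smul_smul θ, mul_inv_cancel_left₀ θ0] at this ⊢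
      linear_combination (norm := module) this - (2 * θ - 2) • c2 + σ • c1
  have ns := h.nsc hg e θ0 h4
  have k1 := h.ind (X := {y | y ∈ P ∧ T y = θ • 1}) (fun _ h => h.1) (fun g hg x hx => T_conj_mem hg hx)
    ⟨hg, e⟩ ns (fun x => ∀ z ∈ A, x.1 * z * x⁻¹.1 ∈ A) (fun x _ ⟨c, hc⟩ z hz => by
      rwa [show x.1 * z = z * x.1 by simp [hc], mul_assoc, Units.mul_inv, mul_one])
    (fun x _ y _ hx hy z hz => by simpa only [nc k V] using hx _ (hy z hz)) (by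
      rintro y ⟨hy, ey⟩ z hz
      rcases key y hy ey with q | ⟨q, q'⟩
      · exact A.mul_mem (A.mul_mem q hz) (by
          rw [inv_of_T ey]; exact A.sub_mem (A.smul_mem A.one_mem _) q)
      · have : z ∈ Subalgebra.centralizer k {y.1} := Algebra.adjoin_le (by
          rintro _ (rfl | rfl) _ rfl
          exacts [congrArg Units.val q, congrArg Units.val q']) hz
        rwa [this _ rfl, mul_assoc, Units.mul_inv, mul_one])
  have k2 := h.ind (X := {y | (y ∈ P ∧ T y = θ • 1) ∧ y.1 ∈ A}) (fun _ h => h.1.1)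
    (fun g hg x hx => ⟨T_conj_mem hg hx.1, k1 g hg _ hx.2⟩) ⟨⟨hg, e⟩, gA⟩ ns (fun x => x.1 ∈ A)
    (fun x _ ⟨c, hc⟩ => hc ▸ A.smul_mem A.one_mem c) (fun x _ y _ hx hy => A.mul_mem hx hy) fun x hx => hx.2
  have := h.nontriv
  obtain ⟨z, z0⟩ := exists_ne (0 : V)
  obtain ⟨v, v0, -, -, -, b1, b2⟩ := eigU hθ hl hs e e' ir z0 (by simp [c])
  rcases h.irr (LinearMap.range (co v (g'.1 v))) (fun x hx => by
    have hx := k2 x hx
    generalize x.1 = f at hx
    induction hx using Algebra.adjoin_induction with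
    | mem f hf => rintro _ ⟨u, rfl⟩; rcases hf with rfl | rfl; exacts [⟨_, (b1 u).symm⟩, ⟨_, (b2 u).symm⟩]
    | algebraMap r => exact fun u hu => Submodule.smul_mem _ r hu
    | add f f' _ _ i1 i2 => exact fun u hu => Submodule.add_mem _ (i1 u hu) (i2 u hu)
    | mul f f' _ _ i1 i2 => exact fun u hu => i1 _ (i2 u hu)) with q | q
  · exact v0 ((Submodule.eq_bot_iff _).1 q v ⟨![1, 0], by simp [co_apply]⟩)
  · have := LinearMap.finrank_range_le (co v (g'.1 v) : (Fin 2 → k) →ₗ[k] V)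
    rw [q, finrank_top, h.dim] at this
    simp at this

theorem cfg (h : S2 p P π) (hθ : θ ^ 2 = θ + 1) (h4 : θ ^ 2 ≠ 4) (hl : l * μ = 1) (hs : l + μ = θ)
    (hg : g ∈ P) (hg' : g' ∈ P) (e : T g = θ • 1) (e' : T g' = θ • 1) (ir : ρ = 1 ∨ ρ = θ)
    (c : Cp ((T (g * g')).eigenspace ρ) ((T (g * g')).eigenspace ρ'))
    (H : (ρ = θ ∧ ρ' = 1) ∨ (ρ' = θ ^ 2 - 2 ∧
      ∀ v ∈ (T (g * g')).eigenspace ρ', g.1 (g'.1 v) = g'.1 (g.1 v))) : False := by
  have l1 : l ^ 4 - l ^ 3 + l ^ 2 - l + 1 = 0 := by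
    rw [← hs] at hθ; linear_combination l ^ 2 * hθ - (2 * l ^ 2 + l * μ + 1 - l) * hl
  have l2 : μ = 1 - l + l ^ 2 - l ^ 3 := by linear_combination μ * l1 - (l ^ 3 - l ^ 2 + l - 1) * hl
  have l3 : θ = 1 + l ^ 2 - l ^ 3 := by linear_combination l2 - hs
  have m1 : em l x1 = !![l, 1 - θ * μ; 0, μ] := by
    simp [em, ev, x1]; exact ⟨by rw [l3, l2]; linear_combination (l ^ 2 - l) * l1, by rw [l2]; ring⟩
  have m2 : em l x2 = !![l, θ - θ * μ; 0, μ] := by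
    simp [em, ev, x2]; exact ⟨by rw [l3, l2]; linear_combination (l ^ 2 - l) * l1, by rw [l2]; ring⟩
  have m3 : em l yy = !![0, -1; 1, θ] := by simp [em, ev, yy, o1, th, l3]; ring
  obtain ⟨z, hz, z0⟩ := ne2 c.d1
  obtain ⟨v, v0, v1, v2, v3, v4, v5⟩ := eigU hθ hl hs e e' ir z0 (End.mem_eigenspace_iff.1 hz)
  have v1 := End.mem_eigenspace_iff.2 v1
  have v2 := End.mem_eigenspace_iff.2 v2
  have fin : ∀ a b, a ∈ (T (g * g')).eigenspace ρ' → b ∈ (T (g * g')).eigenspace ρ' → a ≠ 0 →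
      (∀ s : k, b ≠ s • a) → Cf P v (g'.1 v) a b θ → False := fun a b ha hb a0 ab =>
    core h hθ h4 hl hs hg e v0 v3 a0 fun z => by
      obtain ⟨x, hx, y, hy, rfl⟩ := c.sp z
      obtain ⟨s1, s2, rfl⟩ := span2 c.d1 v1 v2 v0 v3 hx
      obtain ⟨s3, s4, rfl⟩ := span2 c.d2 ha hb a0 ab hy
      exact ⟨![s1, s2], ![s3, s4], rfl⟩
  rcases H with ⟨rfl, rfl⟩ | ⟨rfl, cm⟩
  · obtain ⟨z, hz, z0⟩ := ne2 c.d2
    obtain ⟨u, u0, u1, u2, u3, u4, u5⟩ := eigU hθ hl hs e e' (Or.inl rfl) z0 (End.mem_eigenspace_iff.1 hz)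
    exact fin u _ (End.mem_eigenspace_iff.2 u1) (End.mem_eigenspace_iff.2 u2) u0 u3
      (cf_of l1 ok3 l3 ⟨g, hg, by rwa [m2], by rwa [m1]⟩ ⟨g', hg', v5, u5⟩)
  have B := PU.of e e' (θ ^ 2 - 2)
  have gg : ∀ v, g.1 (g.1 v) = θ • g.1 v - v := fun v => LinearMap.congr_fun (sq_of_T e) v
  have eq : ∀ v ∈ (T (g * g')).eigenspace (θ ^ 2 - 2), g'.1 v = g.1 v := fun v hv => by
    have hw := Submodule.sub_mem _ (Submodule.smul_mem _ (2 : k) (B.u1 v hv).1) (Submodule.smul_mem _ θ hv)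
    have q1 := cm _ hw
    have q2 := LinearMap.congr_fun (swap_eq e e') ((2 : k) • g.1 v - θ • v)
    simp only [End.mul_apply, LinearMap.sub_apply, LinearMap.add_apply, LinearMap.smul_apply, End.one_apply,
      End.mem_eigenspace_iff.1 hw] at q2
    simp only [map_sub g'.1, map_smul g'.1, map_sub g.1, map_smul g.1, gg] at q1 q2
    refine smul_right_injective V (sub_ne_zero.2 h4) ?_
    simp only
    linear_combination (norm := module) q2 - q1
  obtain ⟨f, hf, f1⟩ : ∃ f ∈ (T (g * g')).eigenspace (θ ^ 2 - 2), ∀ s : k, g.1 f ≠ s • f := by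
    by_contra! q
    obtain ⟨a, ha, a0⟩ := ne2 c.d2
    obtain ⟨b, hb, ab⟩ := basis2 c.d2 a0
    obtain ⟨M, d, hM⟩ := h.act c hg B.u1 v1 v2 v0 v3 ha hb a0 ab ⟨_, by simp [hl], v4⟩
    obtain ⟨α, a1⟩ := q a ha
    obtain ⟨β, b1⟩ := q b hb
    obtain ⟨γ, c1⟩ := q _ (Submodule.add_mem _ ha hb)
    rw [map_add, a1, b1, smul_add] at c1
    obtain ⟨rfl, rfl⟩ := indep2 a0 ab c1
    have j : ∀ x, M *ᵥ x = β • x := fun x => co_inj a0 ab (by
      rw [← hM, map_smul, co_apply, map_add, map_smul, map_smul, a1, b1]; module)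
    rw [show M = β • 1 from Matrix.mulVec_injective (funext fun x => by simp [j, smul_mulVec])] at d
    have := gg a
    rw [a1, map_smul, a1] at this
    have : β * β = θ * β - 1 := smul_left_injective k a0 (by
      simp only; linear_combination (norm := module) this)
    simp at d
    exact h4 (by grind)
  have f0 : f ≠ 0 := fun q => f1 0 (by simp [q])
  have f2 : ∀ x, g.1 (co f (g.1 f) x) = co f (g.1 f) (!![0, -1; 1, θ] *ᵥ x) := fun x => by
    simp [co_apply, gg, mulVec, dotProduct]; module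
  have f3 : ∀ x, g'.1 (co f (g.1 f) x) = co f (g.1 f) (!![0, -1; 1, θ] *ᵥ x) := fun x => by
    rw [← f2]
    exact eq _ (Submodule.add_mem _ (Submodule.smul_mem _ _ hf) (Submodule.smul_mem _ _ (B.u1 f hf).1))
  refine fin f _ hf (B.u1 f hf).1 f0 f1 ?_
  rcases ir with rfl | rfl
  · exact cf_of l1 ok1 l3 ⟨g, hg, by rwa [m1], by rwa [m3]⟩ ⟨g', hg', v5, f3⟩
  · exact cf_of l1 ok2 l3 ⟨g, hg, by rwa [m2], by rwa [m3]⟩ ⟨g', hg', v5, f3⟩

theorem n5' (h : S2 p P π) (hg : g ∈ P) (e : T g = θ • 1) (hθ : θ ^ 2 = θ + 1) (h4 : θ ^ 2 ≠ 4) : False := by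
  have θ0 : θ ≠ 0 := by rintro rfl; simp at hθ
  obtain ⟨l, l0, hs⟩ := exists_root θ
  have hl := mul_inv_cancel₀ l0
  have H : ∀ x ∈ P, ∀ y ∈ P, T x = θ • 1 → T y = θ • 1 →
      x * y = y * x ∨ ∃ ρ : k, (ρ = 1 ∨ ρ = θ) ∧ T (x * y) = ρ • 1 := fun x hx y hy ex ey => by
    rcases h.pair_cases hx hy ex ey θ0 with c | ⟨ρ, i, c⟩
    · exact Or.inl c
    have i := i.five h.two hθ h4
    rcases c with c | ⟨-, c, -⟩ | ⟨ρ', ne, c, i' | ⟨rfl | i', cm⟩⟩
    · exact Or.inr ⟨ρ, i, c⟩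
    · exact absurd (by linear_combination c - hθ) θ0
    · have i' := i'.five h.two hθ h4
      rcases id i with rfl | rfl <;> rcases id i' with rfl | rfl
      · exact absurd rfl ne
      · exact (cfg h hθ h4 hl hs hx hy ex ey i' c.symm (Or.inl ⟨rfl, rfl⟩)).elim
      · exact (cfg h hθ h4 hl hs hx hy ex ey i c (Or.inl ⟨rfl, rfl⟩)).elim
      · exact absurd rfl ne
    · have es : ∀ r, (T (x⁻¹ * y)).eigenspace (θ ^ 2 - r) = (T (x * y)).eigenspace r := fun r => by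
        ext v
        simp only [End.mem_eigenspace_iff, T_inv_mul ex ey, LinearMap.sub_apply, LinearMap.smul_apply,
          End.one_apply, sub_smul, _root_.sq, sub_right_inj]
      refine (cfg h hθ h4 hl hs (P.inv_mem hx) hy (by rw [T_inv, ex]) ey (ρ := θ ^ 2 - ρ) (ρ' := θ ^ 2 - 2)
        (by rcases i with rfl | rfl <;> grind) (by rwa [es, es]) (Or.inr ⟨rfl, fun v hv => ?_⟩)).elim
      rw [es] at hv
      simp [inv_of_T ex, cm v hv]
    · exact (cfg h hθ h4 hl hs hx hy ex ey i c (Or.inr ⟨i', cm⟩)).elim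
  by_cases q : ∀ x ∈ P, ∀ y ∈ P, T x = θ • 1 → T y = θ • 1 → x * y = y * x
  · exact h.nsc hg e θ0 h4 (h.comm_class (X := {y | y ∈ P ∧ T y = θ • 1}) (fun _ h => h.1)
      (fun g hg x hx => T_conj_mem hg hx) (fun x hx y hy => ⟨1, by
        rw [one_smul]; exact congrArg Units.val (q x hx.1 y hy.1 hx.2 hy.2)⟩) ⟨hg, e⟩)
  push Not at q
  obtain ⟨x, hx, y, hy, ex, ey, ne⟩ := q
  obtain ⟨ρ, i, c⟩ := (H x hx y hy ex ey).resolve_left ne
  exact scal h.toSt hθ h4 hl hs (fun x hx y hy ex ey => (H x hx y hy ex ey).imp_right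
    fun ⟨ρ, _, c⟩ => ⟨ρ, c⟩) hx hy ex ey i c

theorem n5 (h : S2 p P π) (hg : g ∈ P) (e : T g = θ • 1) (h5 : θ ^ 4 - 3 * θ ^ 2 + 1 = 0)
    (h4 : θ ^ 2 ≠ 4) : False := by
  rcases mul_eq_zero.1 (show (θ ^ 2 - θ - 1) * (θ ^ 2 + θ - 1) = 0 by linear_combination h5) with q | q
  · exact n5' h hg e (by linear_combination q) h4
  · exact n5' h (h.neg hg) (θ := -θ) (by rw [T_neg, e, neg_smul]) (by linear_combination q) (by simpa using h4)

end Cfsg.Agent.H8.N5
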