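import Cfsg.Agent.H8.L4.N5e
import Cfsg.Agent.H6.L4.P4

/-! Quadratic elements have projective order at most three. -/

set_option autoImplicit false

namespace Cfsg.Agent.H6.L4

open Module

universe u

theorem S2.quad {k V : Type*} [Field k] [AddCommGroup V] [Module k V] [FiniteDimensional k V]
    {G : Type u} [Group G] {P : Subgroup (End k V)ˣ} {π : P →* G} {p : ℕ} [Fact p.Prime] [CharP k p]
    [IsAlgClosed k] (h : S2 p P π) : Quad P := fun g hg θ e => by
  by_cases h4 : θ ^ 2 = 4
  · exact Or.inr (Or.inr h4)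
  rcases h.quad0 hg e with q | q | q | q | q
  exacts [Or.inl q, absurd q h4, Or.inr (Or.inl q), (h.n4 hg e q).elim, (H8.N5.n5 h hg e q h4).elim]

end Cfsg.Agent.H6.L4
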